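import Cfsg.Agent.Lib.H27.Baer
import Cfsg.Agent.Lib.H59.PCons
import Cfsg.Agent.Lib.H26.PxQ
import Cfsg.Agent.Lib.H28.RelSyl
import Cfsg.Agent.Lib.H1.Coprime2
import Cfsg.Agent.Lib.H29.RelP
import Cfsg.Agent.Lib.H31.CNGrp

/-!
Bender's lemma: an `E`-invariant `p'`-subgroup of a `p`-constrained group lies in `O_{p'}` if `E` contains
all `p`-elements of its centralizer (`p` odd, or Sylow `2`-subgroups of class at most `2`).
-/

set_option autoImplicit false
set_option linter.unusedSectionVars false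

namespace H31.Bender

open Cfsg Subgroup H28.RelSyl
open scoped commutatorElement

variable {G : Type*} [Group G] [Finite G]

/-- the class two argument -/
theorem comm_of_class2 {p : ℕ} [hp : Fact p.Prime] {P A Q : Subgroup G} (hP : IsPGroup p P) (hA : IsPGroup p A)
    (hQ : (Nat.card Q).Coprime p) (hAP : A ≤ normalizer (P : Set G))
    (hQP : Q ≤ normalizer (P : Set G)) (hAQ : A ≤ normalizer (Q : Set G))
    (hfix : P ⊓ centralizer (A : Set G) ≤ centralizer (Q : Set G))
    (hcl : ∀ x ∈ P, ∀ a ∈ A, x⁻¹ * a * x * a⁻¹ ∈ centralizer (A : Set G)) :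
    Q ≤ centralizer (P : Set G) := by
  have memP : ∀ {g x : G}, g ∈ normalizer (P : Set G) → x ∈ P → g * x * g⁻¹ ∈ P := fun hg hx =>
    (Subgroup.mem_normalizer_iff.1 hg _).1 hx
  have memQ : ∀ {g x : G}, g ∈ normalizer (Q : Set G) → x ∈ Q → g * x * g⁻¹ ∈ Q := fun hg hx =>
    (Subgroup.mem_normalizer_iff.1 hg _).1 hx
  -- `b(x, a) = x⁻¹ a x a⁻¹` is in `C_P(Q)`
  have hb : ∀ x ∈ P, ∀ a ∈ A, x⁻¹ * a * x * a⁻¹ ∈ P ⊓ centralizer (Q : Set G) := by
    intro x hx a ha
    have h1 : x⁻¹ * a * x * a⁻¹ ∈ P := by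
      have := P.mul_mem (P.inv_mem hx) (memP (hAP ha) hx)
      simpa [mul_assoc] using this
    exact ⟨h1, hfix ⟨h1, hcl x hx a ha⟩⟩
  have hBA : ∀ b ∈ P ⊓ centralizer (Q : Set G), ∀ a ∈ A, a * b * a⁻¹ ∈ P ⊓ centralizer (Q : Set G) := by
    intro b hb a ha
 
    refine Subgroup.mem_inf.2 ⟨memP (hAP ha) hb.1, ?_⟩
    rw [mem_centralizer_iff]
    intro y hy
    have hy' : a⁻¹ * y * a ∈ Q := by
      have := memQ (inv_mem (hAQ ha)) hy
      simpa using this
    have h2 := (mem_centralizer_iff.1 hb.2) _ hy'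
    calc y * (a * b * a⁻¹) = a * ((a⁻¹ * y * a) * b) * a⁻¹ := by group
      _ = a * (b * (a⁻¹ * y * a)) * a⁻¹ := by rw [h2]
      _ = a * b * a⁻¹ * y := by group
  -- `[Q, A]` centralizes `P`
  have key : ∀ y ∈ Q, ∀ a ∈ A, ∀ x ∈ P, ⁅y, a⁆ * x = x * ⁅y, a⁆ := by
    intro y hy a ha x hx
    set t := ⁅y, a⁆ with ht
    have htQ : t ∈ Q := by
      have h1 := Q.mul_mem hy (memQ (hAQ ha) (Q.inv_mem hy))
      rw [ht, commutatorElement_def]
      simpa [mul_assoc] using h1
    -- `x⁻¹ t x t⁻¹ ∈ C_P(Q)`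
    have hc : x⁻¹ * t * x * t⁻¹ ∈ P ⊓ centralizer (Q : Set G) := by
      have hx'P : y⁻¹ * x * y ∈ P := by
        have := memP (inv_mem (hQP hy)) hx
        simpa using this
      set x' := y⁻¹ * x * y with hx'
      have hb1 := hb x hx a⁻¹ (inv_mem ha)
      rw [inv_inv] at hb1
      set b1 := x⁻¹ * a⁻¹ * x * a with hb1'
      have hb2 := hb x' hx'P a ha
      set b2 := x'⁻¹ * a * x' * a⁻¹ with hb2'
      have hb3 := hBA b1 hb1 a ha
      set b3 := a * b1 * a⁻¹ with hb3'
      have c1 : y * b1 = b1 * y := (mem_centralizer_iff.1 hb1.2) y hy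
      have c2 : y * b2 = b2 * y := (mem_centralizer_iff.1 hb2.2) y hy
      have c3 : y * b3 = b3 * y := (mem_centralizer_iff.1 hb3.2) y hy
      have e1 : a⁻¹ * x * a = x * b1 := by rw [hb1']; group
      have e2 : y⁻¹ * (x * b1) * y = x' * b1 := by
        calc y⁻¹ * (x * b1) * y = y⁻¹ * x * (b1 * y) := by group
          _ = y⁻¹ * x * (y * b1) := by rw [c1]
          _ = x' * b1 := by rw [hx']; group
      have e3 : a * (x' * b1) * a⁻¹ = x' * b2 * b3 := by rw [hb2', hb3']; group
      have e4 : y * (x' * b2 * b3) * y⁻¹ = x * b2 * b3 := by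
        calc y * (x' * b2 * b3) * y⁻¹ = y * x' * b2 * (b3 * y⁻¹) := by group
          _ = y * x' * b2 * (y⁻¹ * (y * b3) * y⁻¹) := by group
          _ = y * x' * b2 * (y⁻¹ * (b3 * y) * y⁻¹) := by rw [c3]
          _ = y * x' * (y⁻¹ * (y * b2) * y⁻¹) * b3 := by group
          _ = y * x' * (y⁻¹ * (b2 * y) * y⁻¹) * b3 := by rw [c2]
          _ = x * b2 * b3 := by rw [hx']; group
      have e5 : x⁻¹ * t * x * t⁻¹ = b2 * b3 := by
        have : t * x * t⁻¹ = y * (a * (y⁻¹ * (a⁻¹ * x * a) * y) * a⁻¹) * y⁻¹ := by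
          rw [ht, commutatorElement_def]; group
        calc x⁻¹ * t * x * t⁻¹ = x⁻¹ * (t * x * t⁻¹) := by group
          _ = x⁻¹ * (x * b2 * b3) := by rw [this, e1, e2, e3, e4]
          _ = b2 * b3 := by group
      rw [e5]
      exact mul_mem hb2 hb3
    set c := x⁻¹ * t * x * t⁻¹ with hc'
    have ct : t * c = c * t := (mem_centralizer_iff.1 hc.2) t htQ
    have e6 : ∀ n : ℕ, t ^ n * x = x * c ^ n * t ^ n := by
      intro n
      induction n with
      | zero => simp
      | succ n ih =>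
        have e7 : t * x = x * c * t := by rw [hc']; group
        have ct' : t * c ^ n = c ^ n * t := ((show Commute t c from ct).pow_right n).eq
        calc t ^ (n + 1) * x = t * (t ^ n * x) := by rw [pow_succ']; group
          _ = t * (x * c ^ n * t ^ n) := by rw [ih]
          _ = (t * x) * c ^ n * t ^ n := by group
          _ = x * c * (t * c ^ n) * t ^ n := by rw [e7]; group
          _ = x * (c * c ^ n) * (t * t ^ n) := by rw [ct']; group
          _ = x * c ^ (n + 1) * t ^ (n + 1) := by rw [← pow_succ', ← pow_succ']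
    have e8 : c ^ orderOf t = 1 := by
      have := e6 (orderOf t)
      rw [pow_orderOf_eq_one, one_mul, mul_one] at this
      exact (mul_eq_left.1 this.symm)
    have e9 : c = 1 := by
      have h1 : orderOf c ∣ orderOf t := orderOf_dvd_of_pow_eq_one e8
      have h2 : (orderOf t).Coprime p := Nat.Coprime.coprime_dvd_left (Subgroup.orderOf_dvd_natCard _ htQ) hQ
      obtain ⟨k, hk⟩ := (IsPGroup.iff_orderOf.1 hP) ⟨c, hc.1⟩
      rw [Subgroup.orderOf_mk] at hk
      have h3 : (orderOf c).Coprime (orderOf c) := by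
        refine Nat.Coprime.coprime_dvd_left h1 ?_
        rw [hk]
        exact Nat.Coprime.pow_right k h2
      rw [Nat.coprime_self, orderOf_eq_one_iff] at h3
      exact h3
    rw [hc'] at e9
    calc t * x = x * (x⁻¹ * t * x * t⁻¹) * t := by group
      _ = x * t := by rw [e9, mul_one]
  -- `C_Q(A)` centralizes `P`
  have hcopAQ : (Nat.card A).Coprime (Nat.card Q) := by
    obtain ⟨k, hk⟩ := hA.exists_card_eq
    rw [hk]
    exact Nat.Coprime.pow_left k hQ.symm
  have hAsol : Group.IsSolvable A := by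
    have := hA.isNilpotent
    infer_instance
  have hkey2 : Q ⊓ centralizer (A : Set G) ≤ centralizer (P : Set G) := by
    refine H1.Coprime2.pq_lemma p A (Q ⊓ centralizer (A : Set G)) hA ?_ ?_ _ P rfl hP hAP (inf_le_left.trans hQP) ?_
    · exact Nat.Coprime.coprime_dvd_left (Subgroup.card_dvd_of_le inf_le_left) hQ
    · rw [← Subgroup.le_centralizer_iff]; exact inf_le_right
    · exact hfix.trans (Subgroup.centralizer_le (fun x hx => hx.1))
  intro y hy
  have hcomm : ⁅Q, A⁆ ≤ centralizer (P : Set G) := by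
    rw [Subgroup.commutator_le]
    intro y hy a ha
    rw [mem_centralizer_iff]
    intro x hx
    exact (key y hy a ha x hx).symm
  have hsup := H1.Coprime2.commutator_sup_centralizer A Q hAQ hcopAQ (Or.inl hAsol)
  have : (⁅Q, A⁆ ⊔ (Q ⊓ centralizer (A : Set G)) : Subgroup G) ≤ centralizer (P : Set G) := sup_le hcomm hkey2
  rw [hsup] at this
  exact this hy

/-- Bender's lemma. -/
theorem bender {p : ℕ} [hp : Fact p.Prime] (hc : IsPConstrained p G) {E Q : Subgroup G} (hE : IsPGroup p E)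
    (hEfull : ∀ x ∈ centralizer (E : Set G), IsPGroup p (zpowers x) → x ∈ E)
    (hQ : (Nat.card Q).Coprime p) (hEQ : E ≤ normalizer (Q : Set G))
    (h2 : p = 2 → ∀ S : Sylow p G, ∀ a ∈ (S : Subgroup G), ∀ b ∈ (S : Subgroup G), ∀ c ∈ (S : Subgroup G),
      ⁅⁅a, b⁆, c⁆ = 1) : Q ≤ pPrimeCore p G := by
  set K := pPrimeCore p G with hK
  have hKcop : (Nat.card K).Coprime p := H1.Cores.coprime_card_pPrimeCore p
  have hKn : ¬ p ∣ Nat.card K := by
    intro h; rw [Nat.coprime_comm, hp.out.coprime_iff_not_dvd] at hKcop; exact hKcop h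
  set π := QuotientGroup.mk' K with hπ
  have hCT : H59.CharP.CT p (G ⧸ K) := H59.PCons.isPConstrained_iff.1 hc
  set P := pCore p (G ⧸ K) with hP
  have hPp : IsPGroup p P := H1.Cores.isPGroup_pCore p
  have hPn : P.Normal := inferInstance
  set A := E.map π with hA
  set R := Q.map π with hR
  have hAp : IsPGroup p A := hE.map _
  have hRc : (Nat.card R).Coprime p := Nat.Coprime.coprime_dvd_left (Subgroup.card_map_dvd _ _) hQ
  have hAR : A ≤ normalizer (R : Set (G ⧸ K)) := (Subgroup.map_mono hEQ).trans (Subgroup.le_normalizer_map _)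
  have hnP : ∀ L : Subgroup (G ⧸ K), L ≤ normalizer (P : Set (G ⧸ K)) := by
    intro L; rw [Subgroup.normalizer_eq_top]; exact le_top
  -- `C_P(A) ≤ A`
  have hCA : P ⊓ centralizer (A : Set (G ⧸ K)) ≤ A := by
    rintro x ⟨hxP, hxA⟩
    have hx2 : x ∈ (centralizer (E : Set G)).map π := by
      rw [← H26.PxQ.map_centralizer_eq hE hKn]; exact hxA
    obtain ⟨g, hg, rfl⟩ := hx2
    obtain ⟨a, b, ha, hb, hab, ha', hb'⟩ := H31.CNGrp.exists_parts p g
    have hbK : π b = 1 := by
      have h1 : π b ∈ zpowers (π g) := by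
        obtain ⟨n, hn⟩ := hb
        exact ⟨n, by rw [← hn]; simp⟩
      have h2 : π b ∈ P := (zpowers_le.2 hxP) h1
      obtain ⟨k, hk⟩ := (IsPGroup.iff_orderOf.1 hPp) ⟨π b, h2⟩
      rw [Subgroup.orderOf_mk] at hk
      have h3 : (orderOf (π b)).Coprime p := Nat.Coprime.coprime_dvd_left (orderOf_map_dvd π b) hb'
      rw [hk] at h3
      have h4 : p ^ k = 1 := by
        rcases Nat.eq_zero_or_pos k with h | h
        · rw [h, pow_zero]
        · exfalso
          have : Nat.Coprime p p := Nat.Coprime.coprime_dvd_left (dvd_pow_self p h.ne') h3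
          rw [Nat.coprime_self] at this
          exact hp.out.one_lt.ne' this
      rw [h4, orderOf_eq_one_iff] at hk
      exact hk
    have haE : a ∈ E := by
      apply hEfull
      · exact (zpowers_le.2 hg) ha
      · obtain ⟨k, hk⟩ := ha'
        exact IsPGroup.of_card (n := k) (by rw [Nat.card_zpowers, hk])
    rw [hab, map_mul, hbK, mul_one]
    exact Subgroup.mem_map_of_mem _ haE
  -- `C_P(A)` centralizes `R`
  have hfix : P ⊓ centralizer (A : Set (G ⧸ K)) ≤ centralizer (R : Set (G ⧸ K)) := by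
    intro x hx
    have hxA := hCA hx
    rw [mem_centralizer_iff]
    intro r hr
    have h1 : r * x * r⁻¹ * x⁻¹ ∈ P := P.mul_mem (hPn.conj_mem x hx.1 r) (P.inv_mem hx.1)
    have h2 : r * x * r⁻¹ * x⁻¹ ∈ R := by
      have h3 := (Subgroup.mem_normalizer_iff.1 (hAR hxA) r⁻¹).1 (R.inv_mem hr)
      have := R.mul_mem hr h3
      simpa [mul_assoc] using this
    have h4 : P ⊓ R = ⊥ := by
      apply H28.RelHall.inf_eq_bot_of_coprime
      obtain ⟨k, hk⟩ := hPp.exists_card_eq
      rw [hk]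
      exact Nat.Coprime.pow_left k hRc.symm
    have h5 : r * x * r⁻¹ * x⁻¹ ∈ P ⊓ R := ⟨h1, h2⟩
    rw [h4, Subgroup.mem_bot] at h5
    calc r * x = (r * x * r⁻¹ * x⁻¹) * x * r := by group
      _ = x * r := by rw [h5, one_mul]
  have hRP : R ≤ centralizer (P : Set (G ⧸ K)) := by
    by_cases hp2 : p = 2
    · refine comm_of_class2 hPp hAp hRc (hnP _) (hnP _) hAR hfix ?_
      -- a Sylow subgroup containing `E`
      obtain ⟨S, hS, hES⟩ := exists_isSyl_ge hE (le_top : E ≤ ⊤)
      have hLn : (pPrimePCore p G).Normal := by unfold pPrimePCore; infer_instance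
      have hSL : IsSyl p (S ⊓ pPrimePCore p G) (pPrimePCore p G) :=
        hS.inf_normal (by rw [Subgroup.normalizer_eq_top]) le_top
      obtain ⟨Q', hQ'⟩ := isSyl_iff_exists.1 hSL
      have h6 := H59.PCons.map_sylow_pPrimePCore Q'
      rw [hQ'] at h6
      have hPS : P ≤ S.map π := by
        have h9 : P = (S ⊓ pPrimePCore p G).map π := h6.symm
        rw [h9]
        exact Subgroup.map_mono inf_le_left
      have hAS : A ≤ S.map π := Subgroup.map_mono hES
      intro x hx a ha
      rw [mem_centralizer_iff]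
      intro b hb
      obtain ⟨x, hxS, rfl⟩ := hPS hx
      obtain ⟨a, haS, rfl⟩ := hAS ha
      obtain ⟨b, hbS, rfl⟩ := hAS hb
      obtain ⟨S', hS'⟩ := isSyl_top_iff_exists.1 hS
      have h7 := h2 hp2 S' x⁻¹ (by rw [hS']; exact S.inv_mem hxS) a (by rw [hS']; exact haS) b (by rw [hS']; exact hbS)
      rw [commutatorElement_eq_one_iff_mul_comm, commutatorElement_def, inv_inv] at h7
      rw [← map_inv, ← map_inv, ← map_mul, ← map_mul, ← map_mul, ← map_mul, ← map_mul, ← h7]
    · have := H27.Baer.comm_of_fixed hp2 hPp hAp hRc (hnP _) (hnP _) hAR (fun x hx _ hxA => hfix ⟨hx, hxA⟩)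
      rw [Subgroup.commutator_eq_bot_iff_le_centralizer] at this
      rwa [Subgroup.le_centralizer_iff] at this
  intro y hy
  have h8 : π y = 1 := by
    apply hCT
    · exact Nat.Coprime.coprime_dvd_left ((orderOf_map_dvd π y).trans (Subgroup.orderOf_dvd_natCard _ hy)) hQ
    · intro T hT hTp x hx
      have hTP : T ≤ P := H1.Cores.le_pCore hT hTp
      exact (mem_centralizer_iff.1 (hRP (Subgroup.mem_map_of_mem _ hy))) x (hTP hx)
  rw [hπ, QuotientGroup.mk'_apply, QuotientGroup.eq_one_iff] at h8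
  exact h8

end H31.Bender
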