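import Cfsg.Agent.Lib.H29.Fit1
import Cfsg.Agent.Lib.H26.SupCard

/-!
Maximal local subgroups `H` with `|π(F(H))| ≥ 2`: invariant subgroups of solvable groups
(the argument of Bender-Glauberman 8.1 without solvability of `H`).
-/

set_option autoImplicit false
set_option linter.unusedSectionVars false

open Cfsg Subgroup H28.Cj H28.RelSyl H28.RelHall H28.RelCore H29.RelP H29.Trans H29
open scoped commutatorElement

namespace H31.LocFit

variable {G : Type*} [Group G] [Finite G] {H : Subgroup G}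

/-- normalizers of normal `r`-subgroups of `H` lie in `H` -/
def NormLe (H : Subgroup G) : Prop :=
  ∀ (r : ℕ) (X : Subgroup G), r.Prime → IsPGroup r X → X ≠ ⊥ → H ≤ normalizer (X : Set G) →
    normalizer (X : Set G) ≤ H

theorem centralizer_zr_le (hN : NormLe H) {r : ℕ} [hr : Fact r.Prime] (h : r ∣ Nat.card (fittingOf H)) :
    centralizer ((piCoreOf {r} (fittingOf H) ⊓ centralizer (fittingOf H : Set G) : Subgroup G) : Set G) ≤ H := by
  refine (centralizer_le_normalizer _).trans (hN r _ hr.out ?_ (Fit1.zr_ne_bot h) (Fit1.le_normalizer_zr r))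
  exact (NilCore.isPGroup_core (p := r) (fittingOf H)).to_le inf_le_left

/-- `O_{r'}(A)` centralizes every `A`-invariant `r`-subgroup -/
theorem core_centralizes (hN : NormLe H) {A U : Subgroup G} {r : ℕ}
    [hr : Fact r.Prime] (hrF : r ∣ Nat.card (fittingOf H)) (hAF : A ≤ fittingOf H)
    (hZ : fittingOf H ⊓ centralizer (fittingOf H : Set G) ≤ A) (hU : IsPGroup r U)
    (hAU : A ≤ normalizer (U : Set G)) : cp r A ≤ centralizer (U : Set G) := by
  set F := fittingOf H with hF
  have hFn : Group.IsNilpotent F := isNilpotent_fittingOf H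
  have hAn : Group.IsNilpotent A := NilCore.isNilpotent_of_le hAF hFn
  have hZr : piCoreOf {r} F ⊓ centralizer (F : Set G) ≤ piCoreOf {r} A := by
    refine NilCore.le_piCoreOf_of_nilpotent hAn ((inf_le_inf_right _ (piCoreOf_le _ _)).trans hZ) ?_
    exact (piG_piCoreOf _ _).mono inf_le_left
  have hcpF : cp r A ≤ cp r F :=
    NilCore.le_piCoreOf_of_nilpotent hFn ((cp_le _ _).trans hAF) (piG_piCoreOf _ _)
  have hcop : (Nat.card (cp r A)).Coprime r := coprime_iff.2 (not_dvd_cp r A)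
  refine H1.Coprime2.pq_lemma r (piCoreOf {r} A) (cp r A) (NilCore.isPGroup_core A) hcop
    (NilCore.core_compl_le_centralizer A) _ U rfl hU ((piCoreOf_le _ _).trans hAU) ((cp_le _ _).trans hAU) ?_
  set T := U ⊓ centralizer (piCoreOf {r} A : Set G) with hT
  have hTM : T ≤ H := inf_le_right.trans ((Subgroup.centralizer_le hZr).trans (centralizer_zr_le hN hrF))
  have hTp : IsPGroup r T := hU.to_le inf_le_left
  have hnorm : cp r A ≤ normalizer (T : Set G) := by
    refine H1.Coprime2.le_normalizer_inf ((cp_le _ _).trans hAU) ?_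
    exact (NilCore.cp_le_centralizer_core A).trans Subgroup.le_normalizer
  have h1 : ⁅T, cp r A⁆ ≤ piCoreOf {r} F := by
    refine NilCore.le_piCoreOf_of_nilpotent hFn ?_ ?_
    · refine (Subgroup.commutator_mono hTM ((cp_le _ _).trans hAF)).trans ?_
      exact H1.Coprime2.commutator_le_right (le_normalizer_fittingOf H)
    · exact piG_singleton_iff.2 (hTp.to_le (H1.Coprime2.commutator_le_left hnorm))
  have h2 : ⁅⁅T, cp r A⁆, cp r A⁆ = ⊥ := by
    rw [commutator_eq_bot_iff_le_centralizer]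
    exact h1.trans ((NilCore.core_compl_le_centralizer F).trans (Subgroup.centralizer_le hcpF))
  have hTs : Group.IsSolvable T := by
    have := hTp.isNilpotent
    infer_instance
  have h3 := H1.Coprime2.commutator_eq_bot_of (cp r A) T hnorm (cop hTp (not_dvd_cp r A)).symm (Or.inr hTs) h2
  exact commutator_eq_bot_iff_le_centralizer.1 h3

/-- solvable subgroups of `C_H(F(H))` normalized by `C_H(F(H))` lie in `F(H)` -/
theorem le_fitting_of_solvable {S₀ : Subgroup G} (hS₀ : S₀ ≤ H ⊓ centralizer (fittingOf H : Set G))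
    (hn : H ⊓ centralizer (fittingOf H : Set G) ≤ normalizer (S₀ : Set G)) (hs : Group.IsSolvable S₀) :
    S₀ ≤ fittingOf H := by
  set X := H ⊓ centralizer (fittingOf H : Set G) with hX
  have hHX : H ≤ normalizer (X : Set G) :=
    H1.Coprime2.le_normalizer_inf le_normalizer (H1.Coprime2.le_normalizer_centralizer (le_normalizer_fittingOf H))
  set 𝒯 : Set (Subgroup G) := {T | T ≤ X ∧ X ≤ normalizer (T : Set G) ∧ Group.IsSolvable T} with h𝒯
  have hS : sSup 𝒯 ∈ 𝒯 := by
    refine H1.Cores.sSup_mem_of_sup_closed 𝒯 ⟨bot_le, by rw [normalizer_eq_top]; exact le_top, inferInstance⟩ ?_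
    rintro A ⟨h1, h2, h3⟩ B ⟨h4, h5, h6⟩
    exact ⟨sup_le h1 h4, H1.Coprime2.le_normalizer_sup h2 h5, H26.SupCard.isSolvable_sup (h4.trans h2) h3 h6⟩
  set S := sSup 𝒯 with hSdef
  have hHS : H ≤ normalizer (S : Set G) := by
    intro h hh
    apply mem_normalizer_of_cj_le
    have hX' : cj h X = X := mem_normalizer_iff_cj.1 (hHX hh)
    refine le_sSup ⟨?_, ?_, ?_⟩
    · rw [← hX']; exact cj_le_cj.2 hS.1
    · rw [← hX', ← cj_normalizer]; exact cj_le_cj.2 hS.2.1
    · have := hS.2.2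
      exact Group.isSolvable_of_surjective (cjEquiv h S).surjective (f := (cjEquiv h S).toMonoidHom)
  have hFS : fittingOf S ≤ fittingOf H := by
    refine le_fittingOf ((fittingOf_le S).trans (hS.1.trans inf_le_left)) ?_ (isNilpotent_fittingOf S)
    exact hHS.trans (normalizer_le_normalizer_fittingOf S)
  have h1 : S ≤ fittingOf S := by
    refine le_trans (le_inf le_rfl ?_) (NilCore.inf_centralizer_fittingOf_le hS.2.2)
    exact (hS.1.trans inf_le_right).trans (Subgroup.centralizer_le hFS)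
  have hmem : S₀ ∈ 𝒯 := ⟨hS₀, hn, hs⟩
  exact (le_sSup hmem).trans (h1.trans hFS)

/-- `A`-invariant subgroups of `H ⊓ R` of order prime to `|F(H)|` are trivial -/
theorem eq_bot_of_inv {R : Subgroup G} (hR : Group.IsSolvable R)
    (hXR : H ⊓ centralizer (fittingOf H : Set G) ≤ normalizer (R : Set G)) {A Y : Subgroup G} (hAF : A ≤ fittingOf H)
    (hCA : fittingOf H ⊓ centralizer (A : Set G) ≤ A) (hYM : Y ≤ H) (hYR : Y ≤ R)
    (hAY : A ≤ normalizer (Y : Set G))
    (hcop : (Nat.card Y).Coprime (Nat.card (fittingOf H))) : Y = ⊥ := by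
  set F := fittingOf H with hF
  have hdis : Y ⊓ F = ⊥ := H28.RelHall.inf_eq_bot_of_coprime hcop
  have hYF : Y ≤ normalizer (F : Set G) := hYM.trans (le_normalizer_fittingOf H)
  have h1 : Y ≤ centralizer (A : Set G) := by
    rw [← commutator_eq_bot_iff_le_centralizer, eq_bot_iff, ← hdis]
    refine le_inf (H1.Coprime2.commutator_le_left hAY) ?_
    exact (Subgroup.commutator_mono le_rfl hAF).trans (H1.Coprime2.commutator_le_right hYF)
  have hAC : A ≤ F ⊓ centralizer (Y : Set G) := le_inf hAF (Subgroup.le_centralizer_iff.1 h1)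
  have h2 : Y ≤ centralizer (F : Set G) := by
    refine Cfsg.Agent.S1442.result F Y (isNilpotent_fittingOf H) hYF hcop ?_
    exact ((inf_le_inf_left _ (Subgroup.centralizer_le hAC)).trans hCA).trans hAC
  have h3 : Y ≤ F := by
    refine le_trans (le_inf hYR (le_inf hYM h2)) (le_fitting_of_solvable (S₀ := R ⊓ (H ⊓ centralizer (F : Set G)))
      inf_le_right ?_ (H1.Coprime.isSolvable_of_le inf_le_left hR))
    exact H1.Coprime2.le_normalizer_inf hXR le_normalizer
  rw [eq_bot_iff, ← hdis]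
  exact le_inf le_rfl h3

/-- `A`-invariant `π(A)'`-subgroups of `R ≥ A` lie in `O_{π(A)'}(R)` -/
theorem le_core (hN : NormLe H) {A : Subgroup G} (hAF : A ≤ fittingOf H)
    (hCA : fittingOf H ⊓ centralizer (A : Set G) ≤ A)
    (h2 : ∀ r : ℕ, ∃ s : ℕ, s.Prime ∧ s ≠ r ∧ s ∣ Nat.card (fittingOf H)) {X : Subgroup G}
    (hs : Group.IsSolvable X) (hXR : H ⊓ centralizer (fittingOf H : Set G) ≤ normalizer (X : Set G))
    (hAX : A ≤ X) {Y : Subgroup G} (hYX : Y ≤ X) (hY : PiG (ppi A) Y) (hAY : A ≤ normalizer (Y : Set G)) :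
    Y ≤ piCoreOf (ppi A) X := by
  set F := fittingOf H with hF
  have hZ := Fit1.zr_le hAF hCA
  have hAs : Group.IsSolvable A := H1.Coprime.isSolvable_of_le hAX hs
  set N := piCoreOf (ppi A) X with hN'
  obtain ⟨F₀, hF₀X, hF₀n, hF₀π, hF₀C, hF₀c⟩ := PiFit.exists_piFit hs (ppi A)
  have hAN : A ≤ normalizer (N : Set G) := hAX.trans (le_normalizer_piCoreOf _ _)
  have hcopAN : (Nat.card A).Coprime (Nat.card N) := coprime_of_ppi (piG_piCoreOf _ _)
  obtain ⟨k, hk, hkA⟩ := H1.Coprime.exists_invariant_conj A N hAN hcopAN (Or.inl hAs) F₀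
    (fun a ha => by
      obtain ⟨k, hk, e⟩ := hF₀c a (hAX ha)
      exact ⟨k, hk, by rw [H1.SZ.conj_smul_eq_map, H1.SZ.conj_smul_eq_map]; exact e⟩)
  rw [H1.SZ.conj_smul_eq_map] at hkA
  have hkX : k ∈ X := piCoreOf_le _ _ hk
  have hXcj : cj k X = X := cj_eq_self_of_mem hkX
  have hNcj : cj k N = N := cj_eq_self_of_mem hk
  set F₁ := cj k F₀ with hF₁
  have hF₁X : F₁ ≤ X := by rw [← hXcj]; exact cj_le_cj.2 hF₀X
  have hF₁n : Group.IsNilpotent F₁ := Group.nilpotent_of_mulEquiv (cjEquiv k F₀)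
  have hF₁π : PiG (ppi A)ᶜ F₁ := piG_cj.2 hF₀π
  have hF₁C : X ⊓ centralizer (F₁ : Set G) ≤ N ⊔ F₁ := by
    have := (cj_le_cj (g := k)).2 hF₀C
    rw [cj_inf, cj_sup, cj_centralizer, hXcj, hNcj] at this
    exact this
  have hF₁c : ∀ g ∈ X, ∃ k ∈ N, cj k F₁ = cj g F₁ := by
    intro g hg
    obtain ⟨l, hl, e⟩ := hF₀c (g * k) (mul_mem hg hkX)
    refine ⟨l * k⁻¹, mul_mem hl (inv_mem hk), ?_⟩
    rw [hF₁, cj_cj, cj_cj, inv_mul_cancel_right, e]
  have hXsup : X = N ⊔ (X ⊓ normalizer (F₁ : Set G)) := by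
    apply le_antisymm _ (sup_le (piCoreOf_le _ _) inf_le_left)
    intro g hg
    obtain ⟨l, hl, e⟩ := hF₁c g hg
    have hlX : l ∈ X := piCoreOf_le _ _ hl
    have : l⁻¹ * g ∈ X ⊓ normalizer (F₁ : Set G) := by
      refine Subgroup.mem_inf.2 ⟨mul_mem (inv_mem hlX) hg, ?_⟩
      rw [mem_normalizer_iff_cj, ← cj_cj, ← e, cj_inv_cj]
    have e2 : g = l * (l⁻¹ * g) := by group
    rw [e2]
    exact mul_mem (mem_sup_left hl) (mem_sup_right this)
  -- W = N Y
  set W := N ⊔ Y with hW
  have hYN : Y ≤ normalizer (N : Set G) := hYX.trans (le_normalizer_piCoreOf _ _)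
  have hWX : W ≤ X := sup_le (piCoreOf_le _ _) hYX
  have hWπ : PiG (ppi A) W := by
    rw [hW, sup_comm]
    exact PiG.sup hY (piG_piCoreOf _ _) hYN
  have hAW : A ≤ normalizer (W : Set G) := H1.Coprime2.le_normalizer_sup hAN hAY
  set V := W ⊓ normalizer (F₁ : Set G) with hV
  have hVπ : PiG (ppi A) V := hWπ.mono inf_le_left
  have hAV : A ≤ normalizer (V : Set G) :=
    H1.Coprime2.le_normalizer_inf hAW (hkA.trans Subgroup.le_normalizer)
  have hVC : V ≤ centralizer (F₁ : Set G) := by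
    refine NilCore.le_centralizer_of_forall_core hF₁n fun r hr => ?_
    have hrf := Fact.mk hr
    by_cases hrF : r ∣ Nat.card F
    · obtain ⟨s, hs', hsr, hsF⟩ := h2 r
      have hsf := Fact.mk hs'
      set U := piCoreOf {r} F₁ with hU
      have hUp : IsPGroup r U := NilCore.isPGroup_core F₁
      have hNU : normalizer (F₁ : Set G) ≤ normalizer (U : Set G) := normalizer_le_normalizer_piCoreOf _ _
      have h3 := core_centralizes hN hrF hAF hZ hUp (hkA.trans hNU)
      set Z := piCoreOf {s} F ⊓ centralizer (F : Set G) with hZdef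
      have hZA : Z ≤ A := (inf_le_inf_right _ (piCoreOf_le _ _)).trans hZ
      have hZcp : Z ≤ cp r A := by
        refine NilCore.le_piCoreOf_of_nilpotent (NilCore.isNilpotent_of_le hAF (isNilpotent_fittingOf H)) hZA ?_
        refine ((piG_piCoreOf {s} F).mono inf_le_left).mono_set ?_
        rintro _ rfl
        exact hsr
      have hZV : Z ≤ normalizer (V : Set G) := hZA.trans hAV
      have hZs : Group.IsSolvable Z := H1.Coprime.isSolvable_of_le hZA hAs
      have hcopZV : (Nat.card Z).Coprime (Nat.card V) :=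
        Nat.Coprime.coprime_dvd_left (Subgroup.card_dvd_of_le hZA) (coprime_of_ppi hVπ)
      have h4 := H1.Coprime2.commutator_sup_centralizer Z V hZV hcopZV (Or.inl hZs)
      have h5 : V ⊓ centralizer (Z : Set G) = ⊥ := by
        refine eq_bot_of_inv hs hXR hAF hCA (inf_le_right.trans (centralizer_zr_le hN hsF))
          (inf_le_left.trans (inf_le_left.trans hWX)) ?_ ?_
        · refine H1.Coprime2.le_normalizer_inf hAV ?_
          refine le_trans ?_ Subgroup.le_normalizer
          rw [Subgroup.le_centralizer_iff]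
          exact inf_le_right.trans (Subgroup.centralizer_le hAF)
        · exact Fit1.coprime_of_ppi' hAF hCA (hVπ.mono inf_le_left)
      rw [h5, sup_bot_eq] at h4
      rw [← h4]
      have hVCU : V ≤ normalizer (centralizer (U : Set G) : Set G) :=
        H1.Coprime2.le_normalizer_centralizer (inf_le_right.trans hNU)
      exact (Subgroup.commutator_mono le_rfl (hZcp.trans h3)).trans (H1.Coprime2.commutator_le_right hVCU)
    · have : piCoreOf {r} F₁ = ⊥ := by
        rw [← Subgroup.card_eq_one]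
        by_contra hne
        obtain ⟨t, ht, hd⟩ := Nat.exists_prime_and_dvd hne
        have htr : t = r := piG_piCoreOf {r} F₁ t ht hd
        subst htr
        refine hF₁π t ht (hd.trans (Subgroup.card_dvd_of_le (piCoreOf_le _ _))) ⟨ht, ?_⟩
        exact fun hdA => hrF (hdA.trans (Subgroup.card_dvd_of_le hAF))
      rw [this]
      intro x _
      rw [mem_centralizer_iff]
      intro y hy
      have : y = 1 := by simpa using hy
      rw [this, one_mul, mul_one]
  have hVN : V ≤ N := by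
    have h6 : V ≤ N ⊔ F₁ := (le_inf (inf_le_left.trans hWX) hVC).trans hF₁C
    -- `N` is a normal Hall subgroup of `N ⊔ F₁`
    have hF₁N : F₁ ≤ normalizer (N : Set G) := hF₁X.trans (le_normalizer_piCoreOf _ _)
    have hhall : IsPiHallOf (ppi A) N (N ⊔ F₁) := by
      refine ⟨le_sup_left, piG_piCoreOf _ _, fun q hq hqπ hd => ?_⟩
      have h7 := card_sup_mul_card_inf hF₁N
      rw [sup_comm] at h7
      have h8 : N.relIndex (N ⊔ F₁) ∣ Nat.card F₁ := by
        have h9 := relIndex_mul_card (le_sup_left : N ≤ N ⊔ F₁)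
        rw [← h9] at h7
        have h10 : N.relIndex (N ⊔ F₁) * Nat.card (F₁ ⊓ N : Subgroup G) = Nat.card F₁ := by
          have h11 : 0 < Nat.card N := Nat.card_pos
          apply Nat.eq_of_mul_eq_mul_right h11
          calc _ = N.relIndex (N ⊔ F₁) * Nat.card N * Nat.card (F₁ ⊓ N : Subgroup G) := by ring
            _ = _ := by rw [h7]
        exact ⟨_, h10.symm⟩
      exact hF₁π q hq (hd.trans h8) hqπ
    exact le_of_normal_hall hhall (sup_le Subgroup.le_normalizer hF₁N) hVπ h6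
  have hWN : W ≤ N := by
    have h7 : W = N ⊔ (W ⊓ (X ⊓ normalizer (F₁ : Set G))) := by
      refine H28.Sup.eq_sup_inf (inf_le_left.trans (le_normalizer_piCoreOf _ _)) le_sup_left ?_
      rw [← hXsup]; exact hWX
    rw [h7]
    exact sup_le le_rfl ((inf_le_inf_left _ inf_le_right).trans hVN)
  exact le_sup_right.trans hWN

theorem normLe_of_max (_hH : IsLocalSubgroup H) (hmax : ∀ L : Subgroup G, IsLocalSubgroup L → H ≤ L → L = H) :
    NormLe H := by
  intro r X hr hX hX1 hHX
  exact (hmax _ ⟨r, X, hr, hX, hX1, rfl⟩ hHX).le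

theorem ppi_congr {A : Subgroup G} (hAF : A ≤ fittingOf H) (hCA : fittingOf H ⊓ centralizer (A : Set G) ≤ A)
    (X : Subgroup G) : piCoreOf (ppi A) X = piCoreOf (primesNotDvd (Nat.card (fittingOf H))) X := by
  apply piCoreOf_congr
  intro q hq
  constructor
  · rintro ⟨h1, h2⟩
    exact ⟨h1, fun hd => h2 (Fit1.dvd_card_of_dvd hAF hCA hq hd)⟩
  · rintro ⟨h1, h2⟩
    exact ⟨h1, fun hd => h2 (hd.trans (Subgroup.card_dvd_of_le hAF))⟩

/-- S1481 -/
theorem main (hN : NormLe H) (hF2 : 2 ≤ (Nat.card (fittingOf H)).primeFactors.card)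
    {M : Subgroup G} (hM : M ≤ fittingOf H) (hCM : fittingOf H ⊓ centralizer (M : Set G) ≤ M)
    {R : Subgroup G} (hR : Group.IsSolvable R) (hMR : M ≤ normalizer (R : Set G))
    (hXR : H ⊓ centralizer (fittingOf H : Set G) ≤ normalizer (R : Set G))
    {q : ℕ} [hqf : Fact q.Prime] (hq : ¬ q ∣ Nat.card (fittingOf H)) :
    ∃! Q : Subgroup G, Q ∈ maxInvSubgroups R M {q} ∧
      (∀ Q' : Subgroup G, Q' ∈ maxInvSubgroups R M {q} →
        Q' ≤ piCoreOf (primesNotDvd (Nat.card (fittingOf H))) R ∧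
        ¬ q ∣ Q'.relIndex (piCoreOf (primesNotDvd (Nat.card (fittingOf H))) R)) := by
  set F := fittingOf H with hF
  rw [← ppi_congr hM hCM]
  set K := piCoreOf (ppi M) R with hK
  have h2 : ∀ r : ℕ, ∃ s : ℕ, s.Prime ∧ s ≠ r ∧ s ∣ Nat.card F := by
    intro r
    by_contra hcon
    push Not at hcon
    have : (Nat.card F).primeFactors ⊆ {r} := by
      intro s hs
      rw [Finset.mem_singleton]
      by_contra hne
      exact hcon s (Nat.prime_of_mem_primeFactors hs) hne (Nat.dvd_of_mem_primeFactors hs)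
    have h3 := Finset.card_le_card this
    rw [Finset.card_singleton] at h3
    omega
  have hMn : Group.IsNilpotent M := NilCore.isNilpotent_of_le hM (isNilpotent_fittingOf H)
  have hMs : Group.IsSolvable M := by infer_instance
  have hqM : ¬ q ∣ Nat.card M := fun hd => hq (hd.trans (Subgroup.card_dvd_of_le hM))
  -- invariant `q`-subgroups of `R` are in `K`
  have hle : ∀ Y : Subgroup G, Y ≤ R → IsPGroup q Y → M ≤ normalizer (Y : Set G) → Y ≤ K := by
    intro Y hYR hYq hMY
    have hRM : Group.IsSolvable (R ⊔ M : Subgroup G) := H26.SupCard.isSolvable_sup hMR hR hMs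
    have hXM : H ⊓ centralizer (F : Set G) ≤ normalizer (M : Set G) :=
      (inf_le_right.trans (Subgroup.centralizer_le hM)).trans (centralizer_le_normalizer _)
    have h3 := le_core hN hM hCM h2 hRM (H1.Coprime2.le_normalizer_sup hXR hXM) le_sup_right
      (hYR.trans le_sup_left) (Y := Y) ((piG_singleton_iff.2 hYq).mono_set (by
        rintro _ rfl; exact ⟨hqf.out, hqM⟩)) hMY
    have h4 : piCoreOf (ppi M) (R ⊔ M) ⊓ R ≤ K := by
      refine le_piCoreOf inf_le_right ?_ ((piG_piCoreOf _ _).mono inf_le_left)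
      exact H1.Coprime2.le_normalizer_inf (le_sup_left.trans (le_normalizer_piCoreOf _ _)) le_normalizer
    exact (le_inf h3 hYR).trans h4
  have hMK : M ≤ normalizer (K : Set G) := hMR.trans (normalizer_le_normalizer_piCoreOf _ _)
  have hcop : (Nat.card M).Coprime (Nat.card K) := coprime_of_ppi (piG_piCoreOf _ _)
  -- maximal invariant subgroups are Sylow in `K`
  have hsyl : ∀ Q ∈ maxInvSubgroups R M {q}, Q ≤ K ∧ H1.Coprime2.IsSylIn q K Q ∧ M ≤ normalizer (Q : Set G) := by
    rintro Q ⟨⟨h1, h3, h4⟩, h5⟩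
    have hQq : IsPGroup q Q := piG_singleton_iff.1 h3
    have hQK := hle Q h1 hQq h4
    obtain ⟨S, hS, hQS, hMS⟩ := H1.Coprime2.exists_invariant_sylow_ge M K hMK hcop (Or.inl hMs) q Q hQK hQq h4
    have h6 : S = Q := h5 S ⟨hS.1.trans (piCoreOf_le _ _), piG_singleton_iff.2 hS.isPGroup, hMS⟩ hQS
    rw [h6] at hS
    exact ⟨hQK, hS, h4⟩
  have hCK : K ⊓ centralizer (M : Set G) = ⊥ := by
    obtain ⟨s, hs, -, hsF⟩ := h2 0
    have := Fact.mk hs
    have hZM : piCoreOf {s} F ⊓ centralizer (F : Set G) ≤ M :=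
      (inf_le_inf_right _ (piCoreOf_le _ _)).trans (Fit1.zr_le hM hCM)
    refine eq_bot_of_inv hR hXR hM hCM ?_ (inf_le_left.trans (piCoreOf_le _ _)) ?_ ?_
    · exact inf_le_right.trans ((Subgroup.centralizer_le hZM).trans (centralizer_zr_le hN hsF))
    · refine le_trans ?_ (centralizer_le_normalizer _)
      rw [Subgroup.le_centralizer_iff]
      exact inf_le_right
    · exact Fit1.coprime_of_ppi' hM hCM ((piG_piCoreOf (ppi M) R).mono inf_le_left)
  have huniq : ∀ Q₁ ∈ maxInvSubgroups R M {q}, ∀ Q₂ ∈ maxInvSubgroups R M {q}, Q₁ = Q₂ := by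
    intro Q₁ h₁ Q₂ h₂
    obtain ⟨-, hS₁, hM₁⟩ := hsyl Q₁ h₁
    obtain ⟨-, hS₂, hM₂⟩ := hsyl Q₂ h₂
    obtain ⟨c, hc, e⟩ := H1.Coprime2.conj_invariant_sylow M K hMK hcop (Or.inl hMs) q Q₁ Q₂ hS₁ hS₂ hM₁ hM₂
    rw [hCK, mem_bot] at hc
    rw [hc, map_one, one_smul] at e
    exact e
  obtain ⟨Q, hQ, -⟩ := exists_max (bot_mem_inv : (⊥ : Subgroup G) ∈ invSubgroups R M {q})
  refine ⟨Q, ⟨hQ, ?_⟩, ?_⟩
  · intro Q' hQ'
    obtain ⟨h1, h3, h4⟩ := hsyl Q' hQ'
    refine ⟨h1, ?_⟩
    obtain ⟨P, hP⟩ := h3.exists_sylow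
    rw [← hP]
    exact (isSyl_map P).not_dvd
  · rintro Q' ⟨hQ', -⟩
    exact huniq Q' hQ' Q hQ

end H31.LocFit
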