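import Mathlib

/-!
# Ostrom-Wagner, piece T3 (A)

A 2-transitive collineation group of a projective plane of prime power order contains a
nontrivial element fixing all the lines through some point.
-/

set_option autoImplicit false

namespace H31.OW

open Configuration MulAction

section basic

variable {G X : Type*} [Group G] [Finite G] [MulAction G X]

/-- orbit-stabilizer for a subgroup of the acting group. -/
theorem card_orb (H : Subgroup G) (y : X) :
    Nat.card H = {z : X | ∃ h ∈ H, h • y = z}.ncard *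
      Nat.card (H ⊓ stabilizer G y : Subgroup G) := by
  have h1 := Subgroup.card_mul_index (stabilizer H y)
  rw [MulAction.index_stabilizer] at h1
  have h2 : orbit H y = {z : X | ∃ h ∈ H, h • y = z} := by
    ext z
    constructor
    · rintro ⟨⟨h, hh⟩, rfl⟩
      exact ⟨h, hh, rfl⟩
    · rintro ⟨h, hh, rfl⟩
      exact ⟨⟨h, hh⟩, rfl⟩
  have h3 : Nat.card (stabilizer H y) = Nat.card (H ⊓ stabilizer G y : Subgroup G) :=
    Nat.card_congr ⟨fun h => ⟨h.1.1, h.1.2, h.2⟩, fun g => ⟨⟨g.1, g.2.1⟩, g.2.2⟩,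
      fun _ => rfl, fun _ => rfl⟩
  rw [← h1, h2, h3, mul_comm]

theorem card_quot_eq {H X Y : Type*} [Group H] [Finite H] [MulAction H X] [MulAction H Y]
    [Finite X] [Finite Y]
    (hfix : ∀ g : H, Nat.card {p : X // g • p = p} = Nat.card {l : Y // g • l = l}) :
    Nat.card (Quotient (orbitRel H X)) = Nat.card (Quotient (orbitRel H Y)) := by
  classical
  cases nonempty_fintype H
  cases nonempty_fintype X
  cases nonempty_fintype Y
  have h1 := sum_card_fixedBy_eq_card_orbits_mul_card_group H X
  have h2 := sum_card_fixedBy_eq_card_orbits_mul_card_group H Y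
  have h3 : ∑ a : H, Fintype.card (fixedBy X a) = ∑ a : H, Fintype.card (fixedBy Y a) := by
    refine Finset.sum_congr rfl fun g _ => ?_
    have := hfix g
    rw [← Nat.card_eq_fintype_card, ← Nat.card_eq_fintype_card]
    exact this
  rw [h1, h2] at h3
  have h4 := Nat.eq_of_mul_eq_mul_right Fintype.card_pos h3
  rw [Nat.card_eq_fintype_card, Nat.card_eq_fintype_card]
  exact h4

end basic

section plane

variable {P L : Type*} [Membership P L] [Fintype P] [Fintype L] [ProjectivePlane P L]

omit [Fintype P] [Fintype L] in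
theorem ex_pt (l m : L) (h : l ≠ m) : ∃ p : P, p ∈ l ∧ p ∈ m :=
  ⟨HasPoints.mkPoint h, HasPoints.mkPoint_ax h⟩

omit [Fintype P] [Fintype L] in
theorem ex_ln (p q : P) (h : p ≠ q) : ∃ l : L, p ∈ l ∧ q ∈ l :=
  ⟨HasLines.mkLine h, HasLines.mkLine_ax h⟩

omit [Fintype P] [Fintype L] in
theorem ln_uniq {p q : P} (h : p ≠ q) {l m : L} (h1 : p ∈ l) (h2 : q ∈ l) (h3 : p ∈ m)
    (h4 : q ∈ m) : l = m :=
  (Nondegenerate.eq_or_eq h1 h2 h3 h4).resolve_left h

omit [Fintype P] [Fintype L] in
theorem pt_uniq {l m : L} (h : l ≠ m) {p q : P} (h1 : p ∈ l) (h2 : q ∈ l) (h3 : p ∈ m)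
    (h4 : q ∈ m) : p = q :=
  (Nondegenerate.eq_or_eq h1 h2 h3 h4).resolve_right h

variable (P) in
theorem ncard_pts (l : L) : {p : P | p ∈ l}.ncard = ProjectivePlane.order P L + 1 := by
  rw [← ProjectivePlane.pointCount_eq P l]
  rfl

variable (L) in
theorem ncard_lns (p : P) : {l : L | p ∈ l}.ncard = ProjectivePlane.order P L + 1 := by
  rw [← ProjectivePlane.lineCount_eq L p]
  rfl

variable (P L) in
theorem ncard_univ_pts : (Set.univ : Set P).ncard =
    ProjectivePlane.order P L ^ 2 + ProjectivePlane.order P L + 1 := by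
  rw [Set.ncard_univ, Nat.card_eq_fintype_card, ProjectivePlane.card_points P L]

variable (P L) in
theorem ncard_univ_lns : (Set.univ : Set L).ncard =
    ProjectivePlane.order P L ^ 2 + ProjectivePlane.order P L + 1 := by
  rw [Set.ncard_univ, Nat.card_eq_fintype_card, ProjectivePlane.card_lines P L]

variable (L) in
theorem ncard_ne (x : P) : {z : P | z ≠ x}.ncard =
    ProjectivePlane.order P L ^ 2 + ProjectivePlane.order P L := by
  have h1 : {z : P | z ≠ x} = Set.univ \ {x} := by ext z; simp
  rw [h1, Set.ncard_sdiff_singleton_of_mem (Set.mem_univ x), ncard_univ_pts P L]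
  simp

variable (L) in
theorem ncard_off (x : P) : {l : L | x ∉ l}.ncard = ProjectivePlane.order P L ^ 2 := by
  have h1 : {l : L | x ∉ l} = Set.univ \ {l : L | x ∈ l} := by ext z; simp
  have h2 := Set.ncard_sdiff_add_ncard_of_subset (Set.subset_univ {l : L | x ∈ l})
  rw [ncard_univ_lns P L, ncard_lns L x, ← h1] at h2
  omega

theorem ncard_through (x : P) (l : L) (h : x ∈ l) : {m : L | x ∈ m ∧ m ≠ l}.ncard =
    ProjectivePlane.order P L := by
  have h1 : {m : L | x ∈ m ∧ m ≠ l} = {m : L | x ∈ m} \ {l} := by ext z; simp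
  rw [h1, Set.ncard_sdiff_singleton_of_mem (by exact h), ncard_lns L x]
  simp

end plane

theorem exists_ne_pt {P : Type*} (L : Type*) [Membership P L] [Fintype P] [Fintype L]
    [ProjectivePlane P L] (x : P) : ∃ y : P, y ≠ x := by
  have := ProjectivePlane.one_lt_order P L
  have h3 := ncard_ne L x
  have h4 : {z' : P | z' ≠ x}.Nonempty := by
    rw [← Set.ncard_pos, h3]
    positivity
  exact h4


section caseA

variable {G P L : Type*} [Group G] [Finite G] [MulAction G P] [MulAction G L] [Membership P L]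
  [Fintype P] [Fintype L] [ProjectivePlane P L]

omit [Finite G] [Fintype P] [Fintype L] [ProjectivePlane P L] in
theorem mem_smul_of_fix (hinc : ∀ (g : G) (p : P) (l : L), g • p ∈ g • l ↔ p ∈ l)
    {g : G} {p : P} {l : L} (hg : g • p = p) (h : p ∈ l) : p ∈ g • l := by
  have := (hinc g p l).2 h
  rwa [hg] at this

/-- (Burnside) the stabilizer of `x` is transitive on the lines off `x`. -/
theorem trans_lines (hinc : ∀ (g : G) (p : P) (l : L), g • p ∈ g • l ↔ p ∈ l)
    (hfix : ∀ g : G, Nat.card {p : P // g • p = p} = Nat.card {l : L // g • l = l})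
    (h2t : ∀ x y x' y' : P, x ≠ y → x' ≠ y' → ∃ g : G, g • x = x' ∧ g • y = y')
    (x : P) {l l' : L} (hl : x ∉ l) (hl' : x ∉ l') : ∃ g : G, g • x = x ∧ g • l = l' := by
  classical
  by_contra hcon
  push Not at hcon
  set H := stabilizer G x with hH
  have hq : Nat.card (Quotient (orbitRel H P)) = Nat.card (Quotient (orbitRel H L)) :=
    card_quot_eq fun g => hfix g.1
  obtain ⟨y, hy⟩ : ∃ y : P, y ≠ x := by
    have := ProjectivePlane.one_lt_order P L
    have h3 := ncard_ne L x
    have h4 : {z : P | z ≠ x}.Nonempty := by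
      rw [← Set.ncard_pos, h3]
      positivity
    exact h4
  have h1 : Nat.card (Quotient (orbitRel H P)) ≤ 2 := by
    have hs : Function.Surjective (fun b : Bool => (if b then Quotient.mk (orbitRel H P) x
        else Quotient.mk (orbitRel H P) y)) := by
      intro q
      induction q using Quotient.inductionOn with
      | h z =>
        by_cases hz : z = x
        · exact ⟨true, by simp [hz]⟩
        · refine ⟨false, ?_⟩
          simp only [Bool.false_eq_true, if_false]
          apply Quotient.sound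
          obtain ⟨g, hg1, hg2⟩ := h2t x z x y (Ne.symm hz) hy.symm
          exact ⟨⟨g, hg1⟩, hg2⟩
    have := Nat.card_le_card_of_surjective _ hs
    simpa using this
  obtain ⟨l0, hl0, -⟩ := ex_ln (L := L) x y hy.symm
  have h2 : 3 ≤ Nat.card (Quotient (orbitRel H L)) := by
    have hoff : ∀ m : L, x ∉ m → Quotient.mk (orbitRel H L) l0 ≠ Quotient.mk (orbitRel H L) m := by
      intro m hm he
      obtain ⟨⟨g, hg⟩, hg2⟩ := Quotient.exact he
      have hg2' : g • m = l0 := hg2
      have hg' : g • x = x := hg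
      apply hm
      rw [← hinc g x m, hg', hg2']
      exact hl0
    have hne : Quotient.mk (orbitRel H L) l ≠ Quotient.mk (orbitRel H L) l' := by
      intro he
      obtain ⟨⟨g, hg⟩, hg2⟩ := Quotient.exact he.symm
      exact hcon g hg hg2
    have hi : Function.Injective (![Quotient.mk (orbitRel H L) l0, Quotient.mk (orbitRel H L) l,
        Quotient.mk (orbitRel H L) l']) := by
      intro i j hij
      fin_cases i <;> fin_cases j <;> simp at hij ⊢
      · exact hoff l hl hij
      · exact hoff l' hl' hij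
      · exact hoff l hl hij.symm
      · exact hne hij
      · exact hoff l' hl' hij.symm
      · exact hne hij.symm
    have := Nat.card_le_card_of_injective _ hi
    simpa using this
  omega

variable (L) in
omit [MulAction G L] in
theorem card_top_eq
    (h2t : ∀ x y x' y' : P, x ≠ y → x' ≠ y' → ∃ g : G, g • x = x' ∧ g • y = y') (z : P) :
    Nat.card G = (ProjectivePlane.order P L ^ 2 + ProjectivePlane.order P L + 1) *
      Nat.card (stabilizer G z : Subgroup G) := by
  rw [← Subgroup.card_top, card_orb ⊤ z, top_inf_eq]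
  congr 1
  rw [← ncard_univ_pts P L]
  congr 1
  ext w
  simp only [Set.mem_setOf_eq, Set.mem_univ, iff_true, Subgroup.mem_top, true_and]
  obtain ⟨u, hu⟩ := exists_ne_pt L z
  obtain ⟨v, hv⟩ := exists_ne_pt L w
  obtain ⟨g, hg, -⟩ := h2t z u w v hu.symm hv.symm
  exact ⟨g, hg⟩

variable (L) in
omit [MulAction G L] in
theorem card_stab_eq
    (h2t : ∀ x y x' y' : P, x ≠ y → x' ≠ y' → ∃ g : G, g • x = x' ∧ g • y = y')
    {x y : P} (hxy : x ≠ y) :
    Nat.card (stabilizer G x) = (ProjectivePlane.order P L ^ 2 + ProjectivePlane.order P L) *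
      Nat.card (stabilizer G x ⊓ stabilizer G y : Subgroup G) := by
  rw [card_orb (stabilizer G x) y]
  congr 1
  rw [← ncard_ne L x]
  congr 1
  ext w
  simp only [Set.mem_setOf_eq, mem_stabilizer_iff]
  constructor
  · rintro ⟨h, hh, rfl⟩ he
    have : h • y = h • x := by rw [he, hh]
    exact hxy (smul_left_cancel h this).symm
  · intro hw
    obtain ⟨g, hg1, hg2⟩ := h2t x y x w hxy (Ne.symm hw)
    exact ⟨g, hg1, hg2⟩

theorem card_count (hinc : ∀ (g : G) (p : P) (l : L), g • p ∈ g • l ↔ p ∈ l)
    (hfix : ∀ g : G, Nat.card {p : P // g • p = p} = Nat.card {l : L // g • l = l})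
    (h2t : ∀ x y x' y' : P, x ≠ y → x' ≠ y' → ∃ g : G, g • x = x' ∧ g • y = y')
    {x y : P} (hxy : x ≠ y) {x' : P} {m : L} (hm : x' ∉ m) :
    (ProjectivePlane.order P L + 1) * Nat.card (stabilizer G x ⊓ stabilizer G y : Subgroup G) =
      ProjectivePlane.order P L * Nat.card (stabilizer G x' ⊓ stabilizer G m : Subgroup G) := by
  set n := ProjectivePlane.order P L with hn
  have hn1 : 1 < n := ProjectivePlane.one_lt_order P L
  have hG : ∀ z : P, Nat.card G = (n ^ 2 + n + 1) * Nat.card (stabilizer G z : Subgroup G) :=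
    fun z => card_top_eq L h2t z
  have h1 : Nat.card (stabilizer G x) = (n ^ 2 + n) *
      Nat.card (stabilizer G x ⊓ stabilizer G y : Subgroup G) := card_stab_eq L h2t hxy
  have h2 : Nat.card (stabilizer G x') = n ^ 2 *
      Nat.card (stabilizer G x' ⊓ stabilizer G m : Subgroup G) := by
    rw [card_orb (stabilizer G x') m]
    congr 1
    rw [hn, ← ncard_off L x']
    congr 1
    ext w
    simp only [Set.mem_setOf_eq, mem_stabilizer_iff]
    constructor
    · rintro ⟨h, hh, rfl⟩ he
      apply hm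
      rw [← hinc h x' m, hh]
      exact he
    · intro hw
      obtain ⟨g, hg1, hg2⟩ := trans_lines hinc hfix h2t x' hm hw
      exact ⟨g, hg1, hg2⟩
  have h3 : Nat.card (stabilizer G x) = Nat.card (stabilizer G x') := by
    have := (hG x).symm.trans (hG x')
    exact Nat.eq_of_mul_eq_mul_left (by positivity) this
  rw [h1, h2] at h3
  apply Nat.eq_of_mul_eq_mul_left (show 0 < n by omega)
  calc n * ((n + 1) * Nat.card (stabilizer G x ⊓ stabilizer G y : Subgroup G))
      = (n ^ 2 + n) * Nat.card (stabilizer G x ⊓ stabilizer G y : Subgroup G) := by ring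
    _ = n ^ 2 * Nat.card (stabilizer G x' ⊓ stabilizer G m : Subgroup G) := h3
    _ = n * (n * Nat.card (stabilizer G x' ⊓ stabilizer G m : Subgroup G)) := by ring

/-- The p-part computation: a subgroup `Q` of `G_xy` of order `n * (order of G_{x'm})_p`. -/
theorem exists_Q {G : Type*} [Group G] [Finite G] (A B : Subgroup G) {p a n : ℕ} (hp : p.Prime)
    (hn : n = p ^ a) (ha : 0 < a) (h : (n + 1) * Nat.card A = n * Nat.card B) :
    ∃ Q : Subgroup G, Q ≤ A ∧ IsPGroup p Q ∧ Nat.card Q = n * p ^ (Nat.card B).factorization p := by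
  haveI : Fact p.Prime := ⟨hp⟩
  have hA : Nat.card A ≠ 0 := Nat.card_pos.ne'
  have hB : Nat.card B ≠ 0 := Nat.card_pos.ne'
  have hn0 : n ≠ 0 := by rw [hn]; exact pow_ne_zero _ hp.ne_zero
  have hv : (Nat.card A).factorization p = a + (Nat.card B).factorization p := by
    have h1 : ((n + 1) * Nat.card A).factorization p = (n * Nat.card B).factorization p := by
      rw [h]
    rw [Nat.factorization_mul (by omega) hA, Nat.factorization_mul hn0 hB] at h1
    simp only [Finsupp.add_apply] at h1
    have h2 : (n + 1).factorization p = 0 := by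
      apply Nat.factorization_eq_zero_of_not_dvd
      intro hd
      have h3 : p ∣ n := by rw [hn]; exact dvd_pow_self _ ha.ne'
      have h4 : p ∣ 1 := (Nat.dvd_add_right h3).mp hd
      exact hp.one_lt.ne' (Nat.dvd_one.mp h4)
    have h3 : n.factorization p = a := by
      rw [hn, hp.factorization_pow, Finsupp.single_eq_same]
    omega
  obtain ⟨S⟩ : Nonempty (Sylow p A) := inferInstance
  refine ⟨(S : Subgroup A).map A.subtype, Subgroup.map_subtype_le _, S.2.map _, ?_⟩
  have h1 : Nat.card ((S : Subgroup A).map A.subtype) = Nat.card (S : Subgroup A) :=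
    Nat.card_congr ((S : Subgroup A).equivMapOfInjective _ A.subtype_injective).symm.toEquiv
  rw [h1, S.card_eq_multiplicity, hv, pow_add, hn]

/-- **(A)** prime power order. -/
theorem primeCase (hinc : ∀ (g : G) (p : P) (l : L), g • p ∈ g • l ↔ p ∈ l)
    (hfix : ∀ g : G, Nat.card {p : P // g • p = p} = Nat.card {l : L // g • l = l})
    (h2t : ∀ x y x' y' : P, x ≠ y → x' ≠ y' → ∃ g : G, g • x = x' ∧ g • y = y')
    {p a : ℕ} (hp : p.Prime) (hn : ProjectivePlane.order P L = p ^ a) :
    ∃ g : G, g ≠ 1 ∧ ∃ c : P, ∀ l : L, c ∈ l → g • l = l := by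
  classical
  haveI : Fact p.Prime := ⟨hp⟩
  have hn1 : 1 < ProjectivePlane.order P L := ProjectivePlane.one_lt_order P L
  have ha : 0 < a := by
    rcases Nat.eq_zero_or_pos a with h | h
    · rw [h] at hn; simp at hn; omega
    · exact h
  -- two points, the line, a line off
  obtain ⟨x0, -, -, m0, -, -, -⟩ := @ProjectivePlane.exists_config P L _ _
  obtain ⟨x, hx⟩ := Nondegenerate.exists_point (P := P) (L := L) m0
  obtain ⟨y, hy⟩ : ∃ y : P, y ≠ x := by
    have h3 := ncard_ne L x
    have h4 : {z' : P | z' ≠ x}.Nonempty := by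
      rw [← Set.ncard_pos, h3]
      positivity
    exact h4
  obtain ⟨l, hxl, hyl⟩ := ex_ln (L := L) x y hy.symm
  obtain ⟨Q, hQA, hQp, hQc⟩ := exists_Q (stabilizer G x ⊓ stabilizer G y)
    (stabilizer G x ⊓ stabilizer G m0) hp hn ha (card_count hinc hfix h2t hy.symm hx)
  set n := ProjectivePlane.order P L with hndef
  have hQx : ∀ g ∈ Q, g • x = x := fun g hg => (hQA hg).1
  have hQy : ∀ g ∈ Q, g • y = y := fun g hg => (hQA hg).2
  have hQl : ∀ g ∈ Q, g • l = l := fun g hg =>
    ln_uniq (P := P) hy.symm (by rw [← hQx g hg]; exact (hinc g x l).2 hxl)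
      (by rw [← hQy g hg]; exact (hinc g y l).2 hyl) hxl hyl
  -- the orders of all the groups G_{x'm} agree
  have hBc : ∀ (x' : P) (m : L), x' ∉ m → Nat.card (stabilizer G x' ⊓ stabilizer G m : Subgroup G)
      = Nat.card (stabilizer G x ⊓ stabilizer G m0 : Subgroup G) := by
    intro x' m hm
    have h1 := card_count hinc hfix h2t hy.symm hm
    have h2 := card_count hinc hfix h2t hy.symm hx
    rw [h1] at h2
    exact Nat.eq_of_mul_eq_mul_left (by omega) h2
  -- Q is transitive on the lines ≠ l through a Q-fixed point of l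
  have htr : ∀ (u : P), u ∈ l → (∀ g ∈ Q, g • u = u) → ∀ m m' : L, u ∈ m → m ≠ l → u ∈ m' →
      m' ≠ l → ∃ g ∈ Q, g • m = m' := by
    intro u hul hu m m' hum hml hum' hml'
    obtain ⟨x', hx'l, hx'Q, hx'u⟩ : ∃ x' : P, x' ∈ l ∧ (∀ g ∈ Q, g • x' = x') ∧ x' ≠ u := by
      by_cases hux : u = x
      · exact ⟨y, hyl, hQy, by rw [hux]; exact hy⟩
      · exact ⟨x, hxl, hQx, Ne.symm hux⟩
    have hx'm : x' ∉ m := fun h => hml (ln_uniq (P := P) hx'u h hum hx'l hul)
    have hle : (Q ⊓ stabilizer G m : Subgroup G) ≤ stabilizer G x' ⊓ stabilizer G m :=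
      fun g hg => ⟨hx'Q g hg.1, hg.2⟩
    have hdvd := Subgroup.card_dvd_of_le hle
    rw [hBc x' m hx'm] at hdvd
    have hQm : IsPGroup p (Q ⊓ stabilizer G m : Subgroup G) := hQp.to_le inf_le_left
    obtain ⟨k, hk⟩ := IsPGroup.iff_card.mp hQm
    have hkle : k ≤ (Nat.card (stabilizer G x ⊓ stabilizer G m0 : Subgroup G)).factorization p := by
      rw [hk] at hdvd
      exact (hp.pow_dvd_iff_le_factorization Nat.card_pos.ne').mp hdvd
    have horb := card_orb Q m
    rw [hQc, hk] at horb
    have hge : n ≤ {z : L | ∃ h ∈ Q, h • m = z}.ncard := by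
      have h1 : p ^ k ≤ p ^ (Nat.card (stabilizer G x ⊓ stabilizer G m0 :
          Subgroup G)).factorization p := Nat.pow_le_pow_right hp.pos hkle
      have h2 : 0 < p ^ k := pow_pos hp.pos _
      by_contra hlt
      push Not at hlt
      have h3 : {z : L | ∃ h ∈ Q, h • m = z}.ncard * p ^ k < n * p ^ k :=
        Nat.mul_lt_mul_of_pos_right hlt h2
      have h4 : n * p ^ k ≤ n * p ^ (Nat.card (stabilizer G x ⊓ stabilizer G m0 :
          Subgroup G)).factorization p := Nat.mul_le_mul_left _ h1
      omega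
    have hsub : {z : L | ∃ h ∈ Q, h • m = z} ⊆ {z : L | u ∈ z ∧ z ≠ l} := by
      rintro z ⟨h, hh, rfl⟩
      refine ⟨by rw [← hu h hh]; exact (hinc h u m).2 hum, fun he => hml ?_⟩
      rw [← hQl h hh] at he
      exact smul_left_cancel h he
    have heq : {z : L | ∃ h ∈ Q, h • m = z} = {z : L | u ∈ z ∧ z ≠ l} :=
      Set.eq_of_subset_of_ncard_le hsub (by rw [ncard_through u l hul]; exact hge)
        (Set.toFinite _)
    have : m' ∈ {z : L | u ∈ z ∧ z ≠ l} := ⟨hum', hml'⟩
    rw [← heq] at this
    exact this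
  -- a central element of Q
  have hQnt : Nontrivial Q := by
    rw [← Finite.one_lt_card_iff_nontrivial, hQc]
    have : 0 < p ^ (Nat.card (stabilizer G x ⊓ stabilizer G m0 : Subgroup G)).factorization p :=
      pow_pos hp.pos _
    nlinarith
  haveI := hQp.center_nontrivial
  obtain ⟨⟨⟨b, hbQ⟩, hbc⟩, hb1⟩ := exists_ne (1 : Subgroup.center Q)
  have hb1' : b ≠ 1 := by
    intro h
    apply hb1
    apply Subtype.ext
    apply Subtype.ext
    exact h
  have hbcomm : ∀ g ∈ Q, g * b = b * g := by
    intro g hg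
    have := Subgroup.mem_center_iff.mp hbc ⟨g, hg⟩
    exact congrArg Subtype.val this
  refine ⟨b, hb1', ?_⟩
  by_cases hcase : ∃ (u : P) (m : L), u ∈ l ∧ (∀ g ∈ Q, g • u = u) ∧ u ∈ m ∧ m ≠ l ∧ b • m = m
  · obtain ⟨u, m, hul, hu, hum, hml, hbm⟩ := hcase
    refine ⟨u, fun m' hm' => ?_⟩
    by_cases hm'l : m' = l
    · rw [hm'l]; exact hQl b hbQ
    · obtain ⟨g, hg, rfl⟩ := htr u hul hu m m' hum hml hm' hm'l
      rw [← mul_smul, ← hbcomm g hg, mul_smul, hbm]
  · exfalso
    push Not at hcase
    -- all b-fixed points lie on l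
    have hfl : ∀ z : P, b • z = z → z ∈ l := by
      intro z hz
      by_contra hzl
      have hzx : z ≠ x := fun h => hzl (h ▸ hxl)
      obtain ⟨m, hzm, hxm⟩ := ex_ln (L := L) z x hzx
      refine hcase x m hxl hQx hxm (fun h => hzl (h ▸ hzm)) ?_
      exact ln_uniq (P := P) hzx (mem_smul_of_fix hinc hz hzm)
        (mem_smul_of_fix hinc (hQx b hbQ) hxm) hzm hxm
    -- a second b-fixed line
    obtain ⟨m, hbm, hml⟩ : ∃ m : L, b • m = m ∧ m ≠ l := by
      by_contra hno
      push Not at hno
      have h1 : Nat.card {p : P // b • p = p} ≤ 1 := by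
        rw [hfix b]
        haveI : Subsingleton {l : L // b • l = l} :=
          ⟨fun u v => Subtype.ext ((hno u.1 u.2).trans (hno v.1 v.2).symm)⟩
        exact Finite.card_le_one_iff_subsingleton.mpr inferInstance
      haveI := Finite.card_le_one_iff_subsingleton.mp h1
      have h2 : (⟨x, hQx b hbQ⟩ : {p : P // b • p = p}) = ⟨y, hQy b hbQ⟩ :=
        Subsingleton.elim _ _
      exact hy (congrArg Subtype.val h2).symm
    obtain ⟨u, hum, hul⟩ := ex_pt (P := P) m l hml
    refine hcase u m hul (fun g hg => ?_) hum hml hbm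
    have hgul : g • u ∈ l := by rw [← hQl g hg]; exact (hinc g u l).2 hul
    have hgugm : g • u ∈ g • m := (hinc g u m).2 hum
    by_cases hgm : g • m = m
    · rw [hgm] at hgugm
      exact pt_uniq (P := P) hml hgugm hum hgul hul
    · obtain ⟨w, hw1, hw2⟩ := ex_pt (P := P) (g • m) m hgm
      have hbgm : b • g • m = g • m := by
        rw [← mul_smul, ← hbcomm g hg, mul_smul, hbm]
      have hbw : b • w = w := pt_uniq (P := P) hgm
        (by rw [← hbgm]; exact (hinc b w (g • m)).2 hw1) hw1
        (by rw [← hbm]; exact (hinc b w m).2 hw2) hw2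
      have hwl := hfl w hbw
      have hwu : w = u := pt_uniq (P := P) hml hw2 hum hwl hul
      rw [hwu] at hw1
      have hgml : g • m ≠ l := by
        intro he
        rw [← hQl g hg] at he
        exact hml (smul_left_cancel g he)
      exact pt_uniq (P := P) hgml hgugm hw1 hgul hul

end caseA

end H31.OW
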