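import Cfsg.Agent.Lib.H31.OWA

/-!
# Ostrom-Wagner, piece T3 (B)

Even order: some involution is a perspectivity.
-/

set_option autoImplicit false

namespace H31.OW

open Configuration MulAction

theorem dvd_of_orbits {S F : Type*} [Group S] [MulAction S F] [Finite F] {k : ℕ}
    (h : ∀ y : F, k ∣ Nat.card (orbit S y)) : k ∣ Nat.card F := by
  classical
  cases nonempty_fintype F
  rw [Nat.card_congr (selfEquivSigmaOrbits S F), Nat.card_sigma]
  exact Finset.dvd_sum fun ω _ => h _

theorem two_pow_lt {m : ℕ} (hm : m ≠ 0) (hev : 2 ∣ m) : ¬ 2 ^ (m ^ 2).factorization 2 ∣ m ^ 2 + m := by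
  intro h
  have h1 : m ^ 2 + m = m * (m + 1) := by ring
  rw [h1, Nat.prime_two.pow_dvd_iff_le_factorization (by positivity),
    Nat.factorization_mul hm (by omega), Nat.factorization_pow] at h
  have h2 : (m + 1).factorization 2 = 0 := Nat.factorization_eq_zero_of_not_dvd (by omega)
  have h3 : 0 < m.factorization 2 := Nat.prime_two.factorization_pos_of_dvd hm hev
  simp at h
  omega

section caseB

variable {G P L : Type*} [Group G] [Finite G] [MulAction G P] [Membership P L]
  [Fintype P] [Fintype L] [ProjectivePlane P L]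

/-- **(B)** even order. -/
theorem evenCase
    (h2t : ∀ x y x' y' : P, x ≠ y → x' ≠ y' → ∃ g : G, g • x = x' ∧ g • y = y')
    (hB : ∀ g : G, g * g = 1 → g ≠ 1 → (∃ a : L, ∀ p ∈ a, g • p = p) ∨
      (∃ m, ProjectivePlane.order P L = m ^ 2 ∧ Nat.card {p : P // g • p = p} = m ^ 2 + m + 1))
    (hn : 2 ∣ ProjectivePlane.order P L) :
    ∃ g : G, g ≠ 1 ∧ ∃ a : L, ∀ p ∈ a, g • p = p := by
  classical
  set n := ProjectivePlane.order P L with hndef
  have hn1 : 1 < n := ProjectivePlane.one_lt_order P L
  obtain ⟨S⟩ : Nonempty (Sylow 2 G) := inferInstance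
  have hSp : IsPGroup 2 S := S.2
  have hodd : ¬ 2 ∣ Nat.card P := by
    rw [Nat.card_eq_fintype_card, ProjectivePlane.card_points P L, ← hndef]
    have : 2 ∣ n ^ 2 + n := (Dvd.dvd.pow hn (by norm_num)).add hn
    omega
  obtain ⟨x, hx⟩ := hSp.nonempty_fixed_point_of_prime_not_dvd_card P hodd
  have hSx : ∀ s ∈ (S : Subgroup G), s • x = x := fun s hs => hx ⟨s, hs⟩
  obtain ⟨y0, hy0⟩ := exists_ne_pt L x
  have hGt := card_top_eq L h2t x
  -- the order of S
  have hScard : ∀ y : P, y ≠ x → Nat.card (S : Subgroup G) =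
      2 ^ (n.factorization 2 + (Nat.card (stabilizer G x ⊓ stabilizer G y :
        Subgroup G)).factorization 2) := by
    intro y hy
    rw [S.card_eq_multiplicity, hGt, card_stab_eq L h2t hy.symm, ← hndef]
    congr 1
    have e1 : n ^ 2 + n = n * (n + 1) := by ring
    rw [Nat.factorization_mul (by positivity) (mul_ne_zero (by positivity) Nat.card_pos.ne'),
      Nat.factorization_mul (by positivity) Nat.card_pos.ne', e1,
      Nat.factorization_mul (by positivity) (by positivity)]
    have h2 : (n * (n + 1) + 1).factorization 2 = 0 :=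
      Nat.factorization_eq_zero_of_not_dvd (by
        have : 2 ∣ n * (n + 1) := Dvd.dvd.mul_right hn _
        omega)
    have h3 : (n + 1).factorization 2 = 0 :=
      Nat.factorization_eq_zero_of_not_dvd (by omega)
    simp only [Finsupp.add_apply, h2, h3]
    omega
  have hSnt : Nontrivial S := by
    rw [← Finite.one_lt_card_iff_nontrivial]
    have := hScard y0 hy0
    have h3 : 0 < n.factorization 2 := Nat.prime_two.factorization_pos_of_dvd (by omega) hn
    have h4 : 1 < 2 ^ (n.factorization 2 + (Nat.card (stabilizer G x ⊓ stabilizer G y0 :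
        Subgroup G)).factorization 2) := Nat.one_lt_two_pow (by omega)
    rw [← this] at h4
    exact h4
  haveI := hSp.center_nontrivial
  -- a central involution
  obtain ⟨z, hzS, hzc, hz2, hz1⟩ : ∃ z : G, z ∈ (S : Subgroup G) ∧ (∀ s ∈ (S : Subgroup G),
      s * z = z * s) ∧ z * z = 1 ∧ z ≠ 1 := by
    have hcp : IsPGroup 2 (Subgroup.center S) := hSp.to_subgroup _
    obtain ⟨k, hk⟩ := IsPGroup.iff_card.mp hcp
    have hk0 : k ≠ 0 := by
      rintro rfl
      have h1 := Finite.one_lt_card (α := Subgroup.center S)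
      rw [hk] at h1
      norm_num at h1
    obtain ⟨c, hc⟩ := exists_prime_orderOf_dvd_card' (G := Subgroup.center S) 2
      (by rw [hk]; exact dvd_pow_self _ hk0)
    refine ⟨c.1.1, c.1.2, fun s hs => ?_, ?_, ?_⟩
    · have := Subgroup.mem_center_iff.mp c.2 ⟨s, hs⟩
      exact congrArg Subtype.val this
    · have := pow_orderOf_eq_one c
      rw [hc, pow_two] at this
      exact congrArg (fun u : Subgroup.center S => (u.1.1 : G)) this
    · intro h
      have h1 : c = 1 := by
        apply Subtype.ext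
        apply Subtype.ext
        exact h
      rw [h1, orderOf_one] at hc
      norm_num at hc
  rcases hB z hz2 hz1 with h | ⟨m, hm1, hm2⟩
  · exact ⟨z, hz1, h⟩
  · exfalso
    have hm0 : m ≠ 0 := by rintro rfl; simp at hm1; omega
    have hmev : 2 ∣ m := by
      rw [hm1] at hn
      exact Nat.prime_two.dvd_of_dvd_pow hn
    apply two_pow_lt hm0 hmev
    -- the S-invariant set
    let F := {y : P // y ≠ x ∧ z • y = y}
    have hFc : Nat.card F = m ^ 2 + m := by
      have h1 : Nat.card F = ({p : P | z • p = p} \ {x}).ncard := by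
        rw [← Nat.card_coe_set_eq]
        refine Nat.card_congr (Equiv.subtypeEquivRight fun p => ?_)
        simp [and_comm]
      rw [h1, Set.ncard_sdiff_singleton_of_mem (by exact hSx z hzS), ← Nat.card_coe_set_eq]
      have : Nat.card {p : P | z • p = p} = m ^ 2 + m + 1 := hm2
      rw [this]
      simp
    letI act : MulAction S F :=
      { smul := fun s y => ⟨s.1 • y.1, fun h => y.2.1 (smul_left_cancel s.1 (h.trans
            (hSx s.1 s.2).symm)), by rw [← mul_smul, ← hzc s.1 s.2, mul_smul, y.2.2]⟩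
        one_smul := fun y => Subtype.ext (one_smul G y.1)
        mul_smul := fun s t y => Subtype.ext (mul_smul s.1 t.1 y.1) }
    rw [← hFc, ← hm1]
    refine dvd_of_orbits (S := S) fun y => ?_
    have hoc : Nat.card (orbit S y) = {w : P | ∃ h ∈ (S : Subgroup G), h • y.1 = w}.ncard := by
      rw [← Nat.card_coe_set_eq]
      refine Nat.card_congr ⟨fun w => ⟨w.1.1, ?_⟩, fun w => ⟨⟨w.1, ?_⟩, ?_⟩, fun _ => rfl,
        fun _ => rfl⟩
      · obtain ⟨s, hs⟩ := w.2
        exact ⟨s.1, s.2, congrArg Subtype.val hs⟩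
      · obtain ⟨s, hs, hs2⟩ := w.2
        rw [← hs2]
        exact ((⟨s, hs⟩ : (S : Subgroup G)) • y : F).2
      · obtain ⟨s, hs, hs2⟩ := w.2
        exact ⟨⟨s, hs⟩, Subtype.ext hs2⟩
    rw [hoc]
    have horb := card_orb (S : Subgroup G) y.1
    rw [hScard y.1 y.2.1] at horb
    have hle : ((S : Subgroup G) ⊓ stabilizer G y.1 : Subgroup G) ≤
        stabilizer G x ⊓ stabilizer G y.1 := fun g hg => ⟨hSx g hg.1, hg.2⟩
    have hdvd := Subgroup.card_dvd_of_le hle
    have hQm : IsPGroup 2 ((S : Subgroup G) ⊓ stabilizer G y.1 : Subgroup G) :=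
      hSp.to_le inf_le_left
    obtain ⟨k, hk⟩ := IsPGroup.iff_card.mp hQm
    rw [hk, Nat.prime_two.pow_dvd_iff_le_factorization Nat.card_pos.ne'] at hdvd
    rw [hk] at horb
    obtain ⟨j, hj⟩ := Nat.exists_eq_add_of_le hdvd
    rw [hj] at horb
    have h5 : {w : P | ∃ h ∈ (S : Subgroup G), h • y.1 = w}.ncard =
        2 ^ n.factorization 2 * 2 ^ j := by
      apply Nat.eq_of_mul_eq_mul_right (show 0 < 2 ^ k by positivity)
      rw [← horb]
      ring
    rw [h5]
    exact Dvd.intro _ rfl

end caseB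

end H31.OW
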