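import Cfsg.Agent.Lib.H31.OWB
import Cfsg.Agent.Lib.H1.OW2b

/-!
# Ostrom-Wagner, piece T3 (C)

The maximal planar 2-subgroup and the action of its normalizer.
-/

set_option autoImplicit false

namespace H31.OW

open Configuration MulAction H1.OW

section grp

variable {G : Type*} [Group G] [Finite G]

theorem ext2 {A V : Subgroup G} (hVA : V ≤ A) {k : ℕ} (hV : Nat.card V = 2 ^ k)
    (hnot : Nat.card V ≠ 2 ^ (Nat.card A).factorization 2) :
    ∃ g ∈ A, g ∈ Subgroup.normalizer (V : Set G) ∧ g ∉ V ∧ g * g ∈ V := by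
  have h1 : 2 ^ k ∣ Nat.card A := hV ▸ Subgroup.card_dvd_of_le hVA
  have h2 : k ≤ (Nat.card A).factorization 2 :=
    (Nat.prime_two.pow_dvd_iff_le_factorization Nat.card_pos.ne').mp h1
  have h3 : k + 1 ≤ (Nat.card A).factorization 2 := by
    rcases Nat.lt_or_ge k ((Nat.card A).factorization 2) with h | h
    · exact h
    · exact absurd (by rw [hV, le_antisymm h2 h]) hnot
  have h4 : 2 ^ (k + 1) ∣ Nat.card A :=
    (Nat.prime_two.pow_dvd_iff_le_factorization Nat.card_pos.ne').mpr h3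
  have h5 : Nat.card (V.subgroupOf A) = 2 ^ k := by
    rw [Nat.card_congr (Subgroup.subgroupOfEquivOfLe hVA).toEquiv, hV]
  haveI : Fact (Nat.Prime 2) := ⟨Nat.prime_two⟩
  obtain ⟨K, hK1, hK2⟩ := Sylow.exists_subgroup_card_pow_succ h4 h5
  have hVK : V ≤ K.map A.subtype := by
    intro v hv
    exact ⟨⟨v, hVA hv⟩, hK2 (show (⟨v, hVA hv⟩ : A) ∈ V.subgroupOf A from hv), rfl⟩
  have hKc : Nat.card (K.map A.subtype) = 2 ^ (k + 1) := by
    rw [← hK1]
    exact Nat.card_congr (K.equivMapOfInjective _ A.subtype_injective).symm.toEquiv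
  have hidx : (V.subgroupOf (K.map A.subtype)).index = 2 := by
    have h6 := Subgroup.card_mul_index (V.subgroupOf (K.map A.subtype))
    rw [Nat.card_congr (Subgroup.subgroupOfEquivOfLe hVK).toEquiv, hV, hKc, pow_succ] at h6
    exact Nat.eq_of_mul_eq_mul_left (by positivity) h6
  have hnorm : (V.subgroupOf (K.map A.subtype)).Normal := Subgroup.normal_of_index_eq_two hidx
  obtain ⟨g, hgK, hgV⟩ : ∃ g ∈ K.map A.subtype, g ∉ V := by
    by_contra hcon
    push Not at hcon
    have h7 := Subgroup.card_le_of_le (show K.map A.subtype ≤ V from hcon)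
    rw [hV, hKc, pow_succ] at h7
    have : 0 < 2 ^ k := by positivity
    omega
  refine ⟨g, Subgroup.map_subtype_le _ hgK, ?_, hgV, ?_⟩
  · exact (Subgroup.normal_subgroupOf_iff_le_normalizer hVK).mp hnorm hgK
  · have := Subgroup.sq_mem_of_index_two hidx (⟨g, hgK⟩ : K.map A.subtype)
    rw [pow_two] at this
    exact this

theorem conj_of_card {A V W : Subgroup G} (hVA : V ≤ A) (hWA : W ≤ A)
    (hV : Nat.card V = 2 ^ (Nat.card A).factorization 2)
    (hW : Nat.card W = 2 ^ (Nat.card A).factorization 2) :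
    ∃ h ∈ A, ∀ g, g ∈ V ↔ h * g * h⁻¹ ∈ W := by
  haveI : Fact (Nat.Prime 2) := ⟨Nat.prime_two⟩
  have hV' : Nat.card (V.subgroupOf A) = 2 ^ (Nat.card A).factorization 2 := by
    rw [Nat.card_congr (Subgroup.subgroupOfEquivOfLe hVA).toEquiv, hV]
  have hW' : Nat.card (W.subgroupOf A) = 2 ^ (Nat.card A).factorization 2 := by
    rw [Nat.card_congr (Subgroup.subgroupOfEquivOfLe hWA).toEquiv, hW]
  obtain ⟨h, hh⟩ := MulAction.exists_smul_eq A (Sylow.ofCard _ hV') (Sylow.ofCard _ hW')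
  have hh2 : ∀ g : A, g ∈ V.subgroupOf A ↔ h * g * h⁻¹ ∈ W.subgroupOf A := by
    intro g
    have h1 : W.subgroupOf A = ((h • Sylow.ofCard _ hV' : Sylow 2 A) : Subgroup A) := by
      rw [hh]; rfl
    rw [h1, Sylow.coe_subgroup_smul, Subgroup.mem_pointwise_smul_iff_inv_smul_mem]
    have h2 : (MulAut.conj h)⁻¹ • (h * g * h⁻¹) = g := by
      rw [← map_inv, MulAut.smul_def, MulAut.conj_apply]
      group
    rw [h2]
    rfl
  refine ⟨h.1, h.2, fun g => ?_⟩
  constructor
  · intro hg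
    exact (hh2 ⟨g, hVA hg⟩).mp hg
  · intro hg
    have hgA : g ∈ A := by
      have h3 : h.1 * g * h.1⁻¹ ∈ A := hWA hg
      have h4 := A.mul_mem (A.mul_mem (A.inv_mem h.2) h3) h.2
      have h5 : h.1⁻¹ * (h.1 * g * h.1⁻¹) * h.1 = g := by group
      rwa [h5] at h4
    exact (hh2 ⟨g, hgA⟩).mpr hg

/-- the 2-part of an element as an odd power -/
theorem odd_pow (g : G) : ∃ m e : ℕ, (g ^ (2 * m + 1)) ^ 2 ^ e = 1 := by
  obtain ⟨e, o, ho, he⟩ := Nat.exists_eq_two_pow_mul_odd (orderOf_pos g).ne'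
  obtain ⟨m, hm⟩ := ho
  refine ⟨m, e, ?_⟩
  rw [← hm, ← pow_mul, mul_comm, ← he, pow_orderOf_eq_one]

theorem isPGroup_zpowers {g : G} {e : ℕ} (h : g ^ 2 ^ e = 1) :
    IsPGroup 2 (Subgroup.zpowers g) := by
  haveI : Fact (Nat.Prime 2) := ⟨Nat.prime_two⟩
  have h1 := orderOf_dvd_of_pow_eq_one h
  obtain ⟨k, -, hk⟩ := (Nat.dvd_prime_pow Nat.prime_two).mp h1
  exact IsPGroup.of_card (by rw [Nat.card_zpowers, hk])

end grp

section act

variable {G X : Type*} [Group G] [MulAction G X]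

theorem smul_sq_pow {g : G} (hg : ∀ x : X, g • g • x = x) (m : ℕ) (x : X) :
    g ^ (2 * m + 1) • x = g • x := by
  induction m with
  | zero => simp
  | succ m ih =>
    have : g ^ (2 * (m + 1) + 1) = g * g * g ^ (2 * m + 1) := by
      rw [show 2 * (m + 1) + 1 = 2 + (2 * m + 1) by ring, pow_add, pow_two]
    rw [this, mul_smul, ih, mul_smul, hg]

theorem swap_pow {g : G} {x y : X} (h1 : g • x = y) (h2 : g • y = x) (m : ℕ) :
    g ^ (2 * m + 1) • x = y ∧ g ^ (2 * m + 1) • y = x := by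
  induction m with
  | zero => simp [h1, h2]
  | succ m ih =>
    have : g ^ (2 * (m + 1) + 1) = g * g * g ^ (2 * m + 1) := by
      rw [show 2 * (m + 1) + 1 = 2 + (2 * m + 1) by ring, pow_add, pow_two]
    rw [this, mul_smul, ih.1, mul_smul, h2, h1, mul_smul (g * g), ih.2, mul_smul, h1, h2]
    exact ⟨rfl, rfl⟩

theorem exists_sq {g : G} {e : ℕ} (h : g ^ 2 ^ e = 1) (hne : ∃ x : X, g • x ≠ x) :
    ∃ i : ℕ, (∃ x : X, g ^ 2 ^ i • x ≠ x) ∧
      (∀ x : X, g ^ 2 ^ i • g ^ 2 ^ i • x = x) := by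
  classical
  have hex : ∃ i, ∀ x : X, g ^ 2 ^ i • x = x := ⟨e, fun x => by rw [h, one_smul]⟩
  have hspec := Nat.find_spec hex
  have hmin := fun j hj => Nat.find_min hex (m := j) hj
  set i := Nat.find hex with hi
  rcases Nat.eq_zero_or_pos i with h0 | h0
  · exfalso
    obtain ⟨x, hx⟩ := hne
    rw [h0] at hspec
    exact hx (by simpa using hspec x)
  · refine ⟨i - 1, ?_, ?_⟩
    · have := hmin (i - 1) (by omega)
      push Not at this
      exact this
    · intro x
      rw [← mul_smul, ← pow_add, ← two_mul, ← pow_succ', Nat.sub_add_cancel h0]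
      exact hspec x

end act

section plane

variable {G P L : Type*} [Group G] [MulAction G P] [MulAction G L] [Membership P L]
  [Finite P] [Finite L] [ProjectivePlane P L]

theorem triv_lines (hinc : ∀ (g : G) (p : P) (l : L), g • p ∈ g • l ↔ p ∈ l) {g : G}
    (hg : ∀ p : P, g • p = p) (l : L) : g • l = l := by
  obtain ⟨p, hp, -, -⟩ := third_point (P := P) l (Classical.choice (by
    obtain ⟨x, -⟩ := @ProjectivePlane.exists_config P L _ _; exact ⟨x⟩)) (Classical.choice (by
    obtain ⟨x, -⟩ := @ProjectivePlane.exists_config P L _ _; exact ⟨x⟩))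
  obtain ⟨q, hq, hqp, -⟩ := third_point (P := P) l p p
  exact ln_uniq hqp (mem_smul_of_fix hinc (hg q) hq) (mem_smul_of_fix hinc (hg p) hp) hq hp

theorem planarEl_of_triv (hinc : ∀ (g : G) (p : P) (l : L), g • p ∈ g • l ↔ p ∈ l) {g : G}
    (hg : ∀ p : P, g • p = p) : PlanarEl P L g := by
  obtain ⟨p₁, p₂, p₃, l₁, l₂, l₃, h⟩ := @ProjectivePlane.exists_config P L _ _
  exact ⟨p₁, p₂, p₃, l₁, l₂, l₃, h, hg _, hg _, hg _, triv_lines hinc hg _,
    triv_lines hinc hg _, triv_lines hinc hg _⟩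

end plane

section main

variable {G P L : Type*} [Group G] [Finite G] [MulAction G P] [MulAction G L] [Membership P L]
  [Fintype P] [Fintype L] [ProjectivePlane P L]

variable (hinc : ∀ (g : G) (p : P) (l : L), g • p ∈ g • l ↔ p ∈ l) {V : Subgroup G}
  (hV2 : IsPGroup 2 V)
  (hmax : ∀ W : Subgroup G, IsPGroup 2 W → Planar P L W → Nat.card W ≤ Nat.card V)

include hV2 hmax in
omit [Fintype P] [Fintype L] [ProjectivePlane P L] in
theorem mem_of_planar (g : Subgroup.normalizer (V : Set G))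
    (hg : IsPGroup 2 (Subgroup.zpowers (g : G))) (hp : PlanarEl (Fx P V) (Fx L V) g) :
    (g : G) ∈ V := by
  haveI : Fact (Nat.Prime 2) := ⟨Nat.prime_two⟩
  have h1 := hp.sup
  have h2 : IsPGroup 2 (V ⊔ Subgroup.zpowers (g : G) : Subgroup G) :=
    IsPGroup.to_sup_of_normal_left' hV2 hg (by
      rw [Subgroup.zpowers_le]
      exact g.2)
  have h3 := hmax _ h2 h1
  have h4 : V = V ⊔ Subgroup.zpowers (g : G) := Subgroup.eq_of_le_of_card_ge le_sup_left h3
  have h5 : (g : G) ∈ V ⊔ Subgroup.zpowers (g : G) :=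
    Subgroup.mem_sup_right (Subgroup.mem_zpowers _)
  exact h4.symm.le h5

omit [Finite G] [Fintype P] [Fintype L] [ProjectivePlane P L] [MulAction G L]
  [Membership P L] in
theorem fx_triv {X : Type*} [MulAction G X] {V : Subgroup G}
    (g : Subgroup.normalizer (V : Set G)) (hg : (g : G) ∈ V) (p : Fx X V) : g • p = p :=
  Subtype.ext (p.2 _ hg)

include hinc hV2 hmax in
/-- elements whose square acts trivially on the subplane have an axis there -/
theorem exists_axis (hV : Planar P L V) (g : Subgroup.normalizer (V : Set G))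
    (hg : ∀ p : Fx P V, g • g • p = p) : ∃ a : Fx L V, ∀ p : Fx P V, p ∈ a → g • p = p := by
  letI := plane hinc hV
  obtain ⟨m, e, hme⟩ := odd_pow g
  set g' := g ^ (2 * m + 1) with hg'
  have hact : ∀ p : Fx P V, g' • p = g • p := smul_sq_pow hg m
  have hg2 : ∀ p : Fx P V, g' • g' • p = p := by
    intro p
    rw [hact, hact]
    exact hg p
  rcases baer (Fx.hinc hinc) g' hg2 with ⟨a, ha⟩ | hpl
  · exact ⟨a, fun p hp => by rw [← hact]; exact ha p hp⟩
  · have h1 : (g' : G) ^ 2 ^ e = 1 := by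
      have := congrArg (Subtype.val) hme
      simpa using this
    have h2 := mem_of_planar hV2 hmax g' (isPGroup_zpowers h1) hpl
    obtain ⟨-, -, -, a, -⟩ := @ProjectivePlane.exists_config (Fx P V) (Fx L V) _ _
    exact ⟨a, fun p _ => by rw [← hact]; exact fx_triv g' h2 p⟩

include hinc hV2 hmax in
/-- any two points of the subplane are fixed by an involution of the subplane -/
theorem exists_inv (h2t : ∀ x y x' y' : P, x ≠ y → x' ≠ y' → ∃ g : G, g • x = x' ∧ g • y = y')
    (hV : Planar P L V) {x y : Fx P V} (hxy : x ≠ y) :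
    ∃ g : Subgroup.normalizer (V : Set G), (∀ p : Fx P V, g • g • p = p) ∧
      (∃ p : Fx P V, g • p ≠ p) ∧ g • x = x ∧ g • y = y := by
  letI := plane hinc hV
  haveI : Fact (Nat.Prime 2) := ⟨Nat.prime_two⟩
  have hxy' : x.1 ≠ y.1 := Fx.ne hxy
  obtain ⟨k, hk⟩ := IsPGroup.iff_card.mp hV2
  have hVA : ∀ a b : Fx P V, V ≤ stabilizer G a.1 ⊓ stabilizer G b.1 :=
    fun a b v hv => ⟨a.2 v hv, b.2 v hv⟩
  by_cases hS : Nat.card V = 2 ^ (Nat.card (stabilizer G x.1 ⊓ stabilizer G y.1 :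
      Subgroup G)).factorization 2
  · exfalso
    obtain ⟨g0, hg01, hg02⟩ := h2t x.1 y.1 y.1 x.1 hxy' hxy'.symm
    set W := V.map (MulAut.conj g0).toMonoidHom with hW
    have hWA : W ≤ stabilizer G x.1 ⊓ stabilizer G y.1 := by
      rintro _ ⟨v, hv, rfl⟩
      constructor
      · show (MulAut.conj g0 v) • x.1 = x.1
        rw [MulAut.conj_apply, mul_smul, mul_smul, inv_smul_eq_iff.mpr hg02.symm, y.2 v hv, hg02]
      · show (MulAut.conj g0 v) • y.1 = y.1
        rw [MulAut.conj_apply, mul_smul, mul_smul, inv_smul_eq_iff.mpr hg01.symm, x.2 v hv, hg01]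
    have hWc : Nat.card W = Nat.card V :=
      Nat.card_congr (V.equivMapOfInjective _ (MulAut.conj g0).injective).symm.toEquiv
    obtain ⟨h, hhA, hh⟩ := conj_of_card hWA (hVA x y) (hWc.trans hS) hS
    -- the swapping element of the normalizer
    have hn : h * g0 ∈ Subgroup.normalizer (V : Set G) := by
      rw [Subgroup.mem_normalizer_iff]
      intro v
      have h1 : v ∈ V ↔ g0 * v * g0⁻¹ ∈ W := by
        constructor
        · intro hv
          exact ⟨v, hv, rfl⟩
        · rintro ⟨w, hw, hw2⟩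
          have : w = v := (MulAut.conj g0).injective hw2
          rwa [← this]
      rw [h1, hh]
      have e1 : h * (g0 * v * g0⁻¹) * h⁻¹ = h * g0 * v * (h * g0)⁻¹ := by group
      rw [e1]
    set g1 : Subgroup.normalizer (V : Set G) := ⟨h * g0, hn⟩ with hg1
    have hg1x : g1 • x = y := by
      apply Subtype.ext
      show (h * g0) • x.1 = y.1
      rw [mul_smul, hg01]
      exact hhA.2
    have hg1y : g1 • y = x := by
      apply Subtype.ext
      show (h * g0) • y.1 = x.1
      rw [mul_smul, hg02]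
      exact hhA.1
    obtain ⟨m, e, hme⟩ := odd_pow g1
    set g2 := g1 ^ (2 * m + 1) with hg2
    have hsw := swap_pow hg1x hg1y m
    obtain ⟨i, hi1, hi2⟩ := exists_sq (X := Fx P V) hme ⟨x, by rw [hsw.1]; exact hxy.symm⟩
    set g3 := g2 ^ 2 ^ i with hg3
    obtain ⟨a, ha⟩ := exists_axis hinc hV2 hmax hV g3 hi2
    obtain ⟨x', hx', -, -⟩ := third_point (P := Fx P V) a x x
    obtain ⟨y', hy', hyx, -⟩ := third_point (P := Fx P V) a x' x'
    have hx'y' : x'.1 ≠ y'.1 := Fx.ne hyx.symm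
    have hg3p : IsPGroup 2 (Subgroup.zpowers (g3 : G)) := by
      apply isPGroup_zpowers (e := e)
      have h5 : g3 ^ 2 ^ e = 1 := by
        rw [hg3, ← pow_mul, mul_comm, pow_mul, hme, one_pow]
      have := congrArg (Subtype.val) h5
      simpa using this
    have h6 : IsPGroup 2 (V ⊔ Subgroup.zpowers (g3 : G) : Subgroup G) :=
      IsPGroup.to_sup_of_normal_left' hV2 hg3p (by
        rw [Subgroup.zpowers_le]
        exact g3.2)
    have h7 : (V ⊔ Subgroup.zpowers (g3 : G) : Subgroup G) ≤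
        stabilizer G x'.1 ⊓ stabilizer G y'.1 := by
      refine sup_le (hVA x' y') ?_
      rw [Subgroup.zpowers_le]
      exact ⟨congrArg Subtype.val (ha x' hx'), congrArg Subtype.val (ha y' hy')⟩
    have h8 : Nat.card (stabilizer G x'.1 ⊓ stabilizer G y'.1 : Subgroup G) =
        Nat.card (stabilizer G x.1 ⊓ stabilizer G y.1 : Subgroup G) := by
      have c1 := card_top_eq L h2t x.1
      have c2 := card_top_eq L h2t x'.1
      rw [card_stab_eq L h2t hxy'] at c1
      rw [card_stab_eq L h2t hx'y', c1] at c2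
      have hn1 := ProjectivePlane.one_lt_order P L
      have c3 := Nat.eq_of_mul_eq_mul_left (by positivity) c2
      exact (Nat.eq_of_mul_eq_mul_left (by positivity) c3).symm
    have h9 : Nat.card (V ⊔ Subgroup.zpowers (g3 : G) : Subgroup G) ≤ Nat.card V := by
      obtain ⟨j, hj⟩ := IsPGroup.iff_card.mp h6
      have h10 := Subgroup.card_dvd_of_le h7
      rw [h8, hj, Nat.prime_two.pow_dvd_iff_le_factorization Nat.card_pos.ne'] at h10
      rw [hj, hS]
      exact Nat.pow_le_pow_right (by norm_num) h10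
    have h11 : V = V ⊔ Subgroup.zpowers (g3 : G) := Subgroup.eq_of_le_of_card_ge le_sup_left h9
    have h12 : (g3 : G) ∈ V := h11.symm.le (Subgroup.mem_sup_right (Subgroup.mem_zpowers _))
    obtain ⟨p, hp⟩ := hi1
    exact hp (fx_triv g3 h12 p)
  · obtain ⟨g, hgA, hgN, hgV, hgg⟩ := ext2 (hVA x y) hk hS
    refine ⟨⟨g, hgN⟩, fun p => ?_, ?_, Subtype.ext hgA.1, Subtype.ext hgA.2⟩
    · rw [← mul_smul]
      exact fx_triv _ hgg p
    · by_contra hcon
      push Not at hcon
      apply hgV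
      have hg4 : g ^ 2 ^ (k + 1) = 1 := by
        rw [pow_succ', pow_mul, pow_two]
        have := pow_card_eq_one' (x := (⟨g * g, hgg⟩ : V))
        rw [hk] at this
        exact congrArg Subtype.val this
      exact mem_of_planar hV2 hmax ⟨g, hgN⟩ (isPGroup_zpowers hg4)
        (planarEl_of_triv (Fx.hinc hinc) hcon)

omit [Finite G] [Fintype P] [Fintype L] in
variable (G P L) in
theorem exists_max [Finite G] : ∃ V : Subgroup G, IsPGroup 2 V ∧ Planar P L V ∧
    ∀ W : Subgroup G, IsPGroup 2 W → Planar P L W → Nat.card W ≤ Nat.card V := by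
  let T := {V : Subgroup G // IsPGroup 2 V ∧ Planar P L V}
  haveI : Nonempty T := ⟨⟨⊥, IsPGroup.of_bot, planar_bot⟩⟩
  obtain ⟨V, hV⟩ := Finite.exists_max (fun V : T => Nat.card V.1)
  exact ⟨V.1, V.2.1, V.2.2, fun W h1 h2 => hV ⟨W, h1, h2⟩⟩

end main

end H31.OW
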