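import Cfsg.Agent.Lib.H31.OWC
import Cfsg.Agent.Lib.H1.OW2c

/-!
# Ostrom-Wagner, piece T3: assembly
-/

set_option autoImplicit false

namespace H31.OW

open Configuration MulAction H1.OW

universe u v w

/-- Theorem X -/
def ThmX : Prop := ∀ (G : Type w) (P : Type u) (L : Type v) [Group G] [Finite G] [MulAction G P]
  [MulAction G L] [Membership P L] [Fintype P] [Fintype L] [ProjectivePlane P L],
  (∀ (g : G) (p : P) (l : L), g • p ∈ g • l ↔ p ∈ l) → (∀ g : G, (∀ p : P, g • p = p) → g = 1) →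
  ¬ 2 ∣ ProjectivePlane.order P L →
  (∀ τ : G, τ * τ = 1 → τ ≠ 1 → ∃ a : L, ∀ p : P, p ∈ a → τ • p = p) →
  (∀ x y : P, x ≠ y → ∃ τ : G, τ * τ = 1 ∧ τ ≠ 1 ∧ τ • x = x ∧ τ • y = y) →
  IsPrimePow (ProjectivePlane.order P L)

section image

variable {N P L : Type*} [Group N] [MulAction N P] [MulAction N L]

/-- the image of `N` in the permutations of points and lines -/
def Im (N P L : Type*) [Group N] [MulAction N P] [MulAction N L] :
    Subgroup (Equiv.Perm P × Equiv.Perm L) :=
  ((toPermHom N P).prod (toPermHom N L)).range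

instance Im.actP : MulAction (Im N P L) P where
  smul g p := g.1.1 p
  one_smul _ := rfl
  mul_smul _ _ _ := rfl

instance Im.actL : MulAction (Im N P L) L where
  smul g l := g.1.2 l
  one_smul _ := rfl
  mul_smul _ _ _ := rfl

/-- the image of an element -/
def Im.mk (P L : Type*) [MulAction N P] [MulAction N L] (g : N) : Im N P L := ⟨_, g, rfl⟩

theorem Im.mk_smul (g : N) (p : P) : Im.mk P L g • p = g • p := rfl

theorem Im.mk_smul' (g : N) (l : L) : Im.mk P L g • l = g • l := rfl

theorem Im.exists_mk (g : Im N P L) : ∃ n : N, g = Im.mk P L n := by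
  obtain ⟨_, n, rfl⟩ := g
  exact ⟨n, rfl⟩

theorem Im.mk_mul (g h : N) : Im.mk P L (g * h) = Im.mk P L g * Im.mk P L h :=
  Subtype.ext (map_mul _ _ _)

theorem Im.mk_one : Im.mk P L (1 : N) = 1 := Subtype.ext (map_one _)

end image

/-- Theorem X for an action that need not be faithful -/
theorem thmX_act (hX : ThmX.{u, v, max u v}) {N : Type w} {P : Type u} {L : Type v} [Group N]
    [Finite N] [MulAction N P]
    [MulAction N L] [Membership P L] [Fintype P] [Fintype L] [ProjectivePlane P L]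
    (hinc : ∀ (g : N) (p : P) (l : L), g • p ∈ g • l ↔ p ∈ l)
    (hodd : ¬ 2 ∣ ProjectivePlane.order P L)
    (H1 : ∀ g : N, (∀ p : P, g • g • p = p) → ∃ a : L, ∀ p : P, p ∈ a → g • p = p)
    (H2 : ∀ x y : P, x ≠ y → ∃ g : N, (∀ p : P, g • g • p = p) ∧ (∃ p : P, g • p ≠ p) ∧
      g • x = x ∧ g • y = y) :
    IsPrimePow (ProjectivePlane.order P L) := by
  have hincI : ∀ (g : Im N P L) (p : P) (l : L), g • p ∈ g • l ↔ p ∈ l := by
    intro g p l
    obtain ⟨n, rfl⟩ := Im.exists_mk g
    exact hinc n p l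
  have hfaith : ∀ g : Im N P L, (∀ p : P, g • p = p) → g = 1 := by
    intro g hg
    have h2 := triv_lines hincI hg
    exact Subtype.ext (Prod.ext (Equiv.ext hg) (Equiv.ext h2))
  haveI : Finite (Im N P L) := inferInstance
  refine hX (Im N P L) P L hincI hfaith hodd ?_ ?_
  · intro g hg _
    obtain ⟨n, rfl⟩ := Im.exists_mk g
    refine H1 n fun p => ?_
    have := congrArg (fun h : Im N P L => h • p) hg
    simp only [one_smul, mul_smul] at this
    exact this
  · intro x y hxy
    obtain ⟨n, h1, ⟨p, hp⟩, h3, h4⟩ := H2 x y hxy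
    refine ⟨Im.mk P L n, hfaith _ fun q => ?_, fun he => hp ?_, h3, h4⟩
    · rw [mul_smul]
      exact h1 q
    · have := congrArg (fun h : Im N P L => h • p) he
      simp only [one_smul] at this
      exact this

section final

variable {G : Type w} {P : Type u} {L : Type v} [Group G] [Finite G] [MulAction G P]
  [MulAction G L] [Membership P L] [Fintype P] [Fintype L] [ProjectivePlane P L]

/-- **T3** -/
theorem persp (hX : ThmX.{u, v, max u v})
    (hinc : ∀ (g : G) (p : P) (l : L), g • p ∈ g • l ↔ p ∈ l)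
    (faith : ∀ g : G, (∀ p : P, g • p = p) → g = 1)
    (h2t : ∀ x y x' y' : P, x ≠ y → x' ≠ y' → ∃ g : G, g • x = x' ∧ g • y = y') :
    ∃ g : G, (∃ p : P, g • p ≠ p) ∧
      ((∃ a : L, ∀ p : P, p ∈ a → g • p = p) ∨ ∃ c : P, ∀ l : L, c ∈ l → g • l = l) := by
  have hnt : ∀ g : G, g ≠ 1 → ∃ p : P, g • p ≠ p := by
    intro g hg
    by_contra hcon
    push Not at hcon
    exact hg (faith g hcon)
  by_cases hev : 2 ∣ ProjectivePlane.order P L
  · obtain ⟨g, hg1, a, ha⟩ := evenCase (G := G) (L := L) h2t (fun g hgg hg1 => by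
      have hg2 : ∀ p : P, g • g • p = p := by
        intro p
        rw [← mul_smul, hgg, one_smul]
      rcases baer hinc g hg2 with h | h
      · exact Or.inl h
      · exact Or.inr (order_sq hinc g hg2 h (hnt g hg1))) hev
    exact ⟨g, hnt g hg1, Or.inl ⟨a, ha⟩⟩
  · obtain ⟨V, hV2, hV, hmax⟩ := exists_max G P L
    obtain ⟨s, hs⟩ := chain' hinc hV hV2
    have hk : IsPrimePow (ord hinc hV) := by
      letI := plane hinc hV
      refine thmX_act hX (N := Subgroup.normalizer (V : Set G)) (P := Fx P V) (L := Fx L V)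
        (Fx.hinc hinc) ?_ (exists_axis hinc hV2 hmax hV)
        (fun x y hxy => exists_inv hinc hV2 hmax h2t hV hxy)
      intro h2
      apply hev
      rw [hs]
      exact Dvd.dvd.pow h2 (by positivity)
    obtain ⟨p, a, hp, ha, hpa⟩ := hk
    have hn : ProjectivePlane.order P L = p ^ (a * 2 ^ s) := by
      rw [hs, ← hpa, pow_mul]
    obtain ⟨g, hg1, c, hc⟩ := primeCase hinc (fix_eq hinc) h2t hp.nat_prime hn
    exact ⟨g, hnt g hg1, Or.inr ⟨c, hc⟩⟩

end final

end H31.OW
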