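import Cfsg.Agent.Lib.H31.Bender
import Cfsg.Agent.Lib.H29.Gen
import Cfsg.Agent.Lib.H29.Trans
import Cfsg.Agent.Lib.H29.Elem
import Cfsg.Agent.Lib.H72.TpCount
import Cfsg.Agent.Lib.H29.Rk2Odd

/-!
Thompson's transitivity theorem for groups with `p`-constrained `p`-locals.
-/

set_option autoImplicit false
set_option linter.unusedSectionVars false

namespace H31.PTrans

open Cfsg Subgroup H28.Cj H28.RelSyl H28.RelHall H28.RelCore H29.RelP
open scoped commutatorElement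

variable {G : Type*} [Group G] [Finite G]

/-- the hypotheses of the transitivity theorem -/
structure Hyp (p : ℕ) (E : Subgroup G) : Prop where
  loc : ∀ T : Subgroup G, IsPGroup p T → T ≠ ⊥ → IsPConstrained p ↥(normalizer (T : Set G))
  two : p = 2 → ∀ S : Sylow p G, ∀ a ∈ (S : Subgroup G), ∀ b ∈ (S : Subgroup G), ∀ c ∈ (S : Subgroup G),
    ⁅⁅a, b⁆, c⁆ = 1
  pg : IsPGroup p E
  ab : ∀ a ∈ E, ∀ b ∈ E, a * b = b * a
  full : ∀ x ∈ centralizer (E : Set G), IsPGroup p (zpowers x) → x ∈ E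

variable {p : ℕ} [hp : Fact p.Prime] {E : Subgroup G}

theorem Hyp.le_normalizer_zpowers (h : Hyp p E) {b : G} (hb : b ∈ E) :
    E ≤ normalizer ((zpowers b : Subgroup G) : Set G) := by
  refine le_trans ?_ (Subgroup.centralizer_le_normalizer _)
  intro a ha
  rw [mem_centralizer_iff]
  intro x hx
  exact h.ab x ((zpowers_le.2 hb) hx) a ha

theorem centralizer_singleton_le (b : G) :
    centralizer ({b} : Set G) ≤ normalizer ((zpowers b : Subgroup G) : Set G) := by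
  refine le_trans ?_ (Subgroup.centralizer_le_normalizer _)
  rw [H29.Gen.centralizer_singleton_eq]

theorem Hyp.le_cp (h : Hyp p E) {b : G} (hb : b ∈ E) (hb1 : b ≠ 1) {Y : Subgroup G}
    (hYN : Y ≤ normalizer ((zpowers b : Subgroup G) : Set G)) (hY : ¬ p ∣ Nat.card Y)
    (hEY : E ≤ normalizer (Y : Set G)) : Y ≤ cp p (normalizer ((zpowers b : Subgroup G) : Set G)) := by
  set N := normalizer ((zpowers b : Subgroup G) : Set G) with hN
  have hEN : E ≤ N := h.le_normalizer_zpowers hb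
  have hT : IsPGroup p (zpowers b) := h.pg.to_le (zpowers_le.2 hb)
  have hc : IsPConstrained p N := h.loc _ hT (by rw [Ne, zpowers_eq_bot]; exact hb1)
  have key : Y.subgroupOf N ≤ pPrimeCore p N := by
    refine H31.Bender.bender hc (E := E.subgroupOf N) ((isPGroup_subgroupOf hEN).2 h.pg) ?_ ?_ ?_ ?_
    · intro x hx hxp
      have h1 : (x : G) ∈ centralizer (E : Set G) := by
        rw [mem_centralizer_iff] at hx ⊢
        intro e he
        exact congrArg Subtype.val (hx ⟨e, hEN he⟩ he)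
      have h2 : (zpowers x).map N.subtype = zpowers (x : G) := by
        rw [MonoidHom.map_zpowers]; rfl
      have h3 : IsPGroup p (zpowers (x : G)) := by rw [← h2]; exact hxp.map _
      exact h.full _ h1 h3
    · rw [H29.RelP.coprime_iff, card_subgroupOf hYN]
      exact hY
    · intro e he
      rw [Subgroup.mem_normalizer_iff]
      intro y
      exact (Subgroup.mem_normalizer_iff.1 (hEY he)) y
    · intro hp2 S a ha b' hb' c hc'
      have hSp : IsPGroup p ((S : Subgroup N).map N.subtype) := S.isPGroup'.map _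
      obtain ⟨S', hS'⟩ := hSp.exists_le_sylow
      have := h.two hp2 S' a (hS' ⟨a, ha, rfl⟩) b' (hS' ⟨b', hb', rfl⟩) c (hS' ⟨c, hc', rfl⟩)
      apply Subtype.ext
      simpa [commutatorElement_def] using this
  rw [cp_eq]
  intro y hy
  exact ⟨⟨y, hYN hy⟩, key hy, rfl⟩

/-- all `p'`-subgroups of `C_G(E)` lie in `O_{p'}(C_G(E))` -/
theorem Hyp.le_KK (h : Hyp p E) {Y : Subgroup G} (hYC : Y ≤ centralizer (E : Set G)) (hY : ¬ p ∣ Nat.card Y) :
    Y ≤ cp p (centralizer (E : Set G)) := by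
  set C := centralizer (E : Set G) with hC
  have hEC : E ≤ C := by
    intro a ha
    rw [hC, mem_centralizer_iff]
    intro b hb
    exact h.ab b hb a ha
  obtain ⟨S⟩ : Nonempty (Sylow p C) := inferInstance
  have hSE : (S : Subgroup C) ≤ E.subgroupOf C := by
    intro x hx
    have h2 : (zpowers x).map C.subtype = zpowers (x : G) := by
      rw [MonoidHom.map_zpowers]; rfl
    have h3 : IsPGroup p (zpowers (x : G)) := by
      rw [← h2]; exact (S.isPGroup'.to_le (zpowers_le.2 hx)).map _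
    exact h.full _ x.2 h3
  have hnpc : HasNormalPComplement p C := by
    refine H72.TpCount.hasNormalPComplement_of_normalizer_le S ?_
    intro x _
    rw [mem_centralizer_iff]
    intro s hs
    apply Subtype.ext
    exact (mem_centralizer_iff.1 x.2) s (hSE hs)
  have key : Y.subgroupOf C ≤ pPrimeCore p C :=
    H29.Rk2Odd.le_pPrimeCore_of_npc hnpc _ (by
      rw [H29.RelP.coprime_iff, card_subgroupOf hYC]
      exact hY)
  rw [cp_eq]
  intro y hy
  exact ⟨⟨y, hYC hy⟩, key hy, rfl⟩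

theorem trans_aux (h : Hyp p E) (hE3 : ¬ PRankLE p 2 E) {q : ℕ} [hq : Fact q.Prime] (hqp : q ≠ p) (n : ℕ) :
    ∀ Q₁ Q₂ : Subgroup G, Nat.card G - Nat.card (Q₁ ⊓ Q₂ : Subgroup G) = n →
      Q₁ ∈ maxInvSubgroups ⊤ E {q} → Q₂ ∈ maxInvSubgroups ⊤ E {q} →
      ∃ k ∈ cp p (centralizer (E : Set G)), Q₂ = cj k Q₁ := by
  induction n using Nat.strong_induction_on with
  | _ n ih =>
  intro Q₁ Q₂ hn h₁ h₂
  by_cases hle1 : Q₁ ≤ Q₂
  · exact ⟨1, one_mem _, by rw [cj_one]; exact h₁.2 Q₂ h₂.1 hle1⟩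
  by_cases hle2 : Q₂ ≤ Q₁
  · exact ⟨1, one_mem _, by rw [cj_one]; exact (h₂.2 Q₁ h₁.1 hle2).symm⟩
  obtain ⟨hp₁, hA₁⟩ := H29.Trans.mem_inv_iff.1 h₁.1
  obtain ⟨hp₂, hA₂⟩ := H29.Trans.mem_inv_iff.1 h₂.1
  set D := Q₁ ⊓ Q₂ with hD
  have hD1 : D < Q₁ := lt_of_le_of_ne inf_le_left (fun e => hle1 (by rw [← e]; exact inf_le_right))
  have hD2 : D < Q₂ := lt_of_le_of_ne inf_le_right (fun e => hle2 (by rw [← e]; exact inf_le_left))
  have hED : E ≤ normalizer (D : Set G) := H1.Coprime2.le_normalizer_inf hA₁ hA₂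
  have hR1 := lt_inf_normalizer_of_isPGroup hp₁ hD1
  have hR2 := lt_inf_normalizer_of_isPGroup hp₂ hD2
  set R₁ := Q₁ ⊓ normalizer (D : Set G) with hR₁
  set R₂ := Q₂ ⊓ normalizer (D : Set G) with hR₂
  have hER1 : E ≤ normalizer (R₁ : Set G) :=
    H1.Coprime2.le_normalizer_inf hA₁ (H1.Coprime2.le_normalizer_normalizer hED)
  have hER2 : E ≤ normalizer (R₂ : Set G) :=
    H1.Coprime2.le_normalizer_inf hA₂ (H1.Coprime2.le_normalizer_normalizer hED)
  have hRp1 : IsPGroup q R₁ := hp₁.to_le inf_le_left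
  have hRp2 : IsPGroup q R₂ := hp₂.to_le inf_le_left
  have hnd : ∀ {Y : Subgroup G}, IsPGroup q Y → ¬ p ∣ Nat.card Y := by
    intro Y hY hd
    obtain ⟨m, hm⟩ := IsPGroup.iff_card.1 hY
    rw [hm] at hd
    exact hqp ((Nat.prime_dvd_prime_iff_eq hp.out hq.out).1 (hp.out.dvd_of_dvd_pow hd)).symm
  obtain ⟨E₀, hE₀E, hE₀, hE₀c⟩ := H28.Rank.not_pRankLE_iff.1 hE3
  have hex : ∀ R : Subgroup G, D < R → IsPGroup q R → E ≤ normalizer (R : Set G) →
      ∃ B ≤ E₀, Nat.card E₀ ≤ p * Nat.card B ∧ ¬ R ⊓ centralizer (B : Set G) ≤ D := by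
    intro R hDR hRp hER
    by_contra hcon
    push Not at hcon
    exact hDR.not_ge (H29.Gen.gen_index_le _ E₀ R D rfl hE₀ (hnd hRp) (hE₀E.trans hER) hcon)
  obtain ⟨B₁, hB₁, hc₁, hm₁⟩ := hex R₁ hR1 hRp1 hER1
  obtain ⟨B₂, hB₂, hc₂, hm₂⟩ := hex R₂ hR2 hRp2 hER2
  have hinf : B₁ ⊓ B₂ ≠ ⊥ := by
    apply H29.Elem.inf_ne_bot_of_card hE₀ hB₁ hB₂
    rw [hE₀c] at hc₁ hc₂ ⊢
    have l₁ : p ^ 2 ≤ Nat.card B₁ := Nat.le_of_mul_le_mul_left (by calc p * p ^ 2 = p ^ (2+1) := by ring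
      _ ≤ _ := hc₁) hp.out.pos
    have l₂ : p ^ 2 ≤ Nat.card B₂ := Nat.le_of_mul_le_mul_left (by calc p * p ^ 2 = p ^ (2+1) := by ring
      _ ≤ _ := hc₂) hp.out.pos
    calc p ^ (2+1) < p ^ (2 + 2) := Nat.pow_lt_pow_right hp.out.one_lt (by norm_num)
      _ = p ^ 2 * p ^ 2 := by ring
      _ ≤ _ := Nat.mul_le_mul l₁ l₂
  obtain ⟨b, hb, hb1⟩ := H29.Elem.exists_ne_one hinf
  have hbE : b ∈ E := hE₀E (hB₁ hb.1)
  have hbc : ∀ {B : Subgroup G}, b ∈ B → centralizer (B : Set G) ≤ centralizer {b} := fun hzB =>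
    Subgroup.centralizer_le (Set.singleton_subset_iff.2 hzB)
  have hEb : E ≤ normalizer ((centralizer ({b} : Set G) : Subgroup G) : Set G) := by
    refine le_trans ?_ le_normalizer
    intro a ha
    rw [mem_centralizer_singleton_iff]
    exact h.ab a ha b hbE
  set S₁ := R₁ ⊓ centralizer ({b} : Set G) with hS₁
  set S₂ := R₂ ⊓ centralizer ({b} : Set G) with hS₂
  have hS₁D : ¬ S₁ ≤ D := fun hh => hm₁ ((inf_le_inf_left _ (hbc hb.1)).trans hh)
  have hS₂D : ¬ S₂ ≤ D := fun hh => hm₂ ((inf_le_inf_left _ (hbc hb.2)).trans hh)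
  have hES₁ : E ≤ normalizer (S₁ : Set G) := H1.Coprime2.le_normalizer_inf hER1 hEb
  have hES₂ : E ≤ normalizer (S₂ : Set G) := H1.Coprime2.le_normalizer_inf hER2 hEb
  have hSp1 : IsPGroup q S₁ := hRp1.to_le inf_le_left
  have hSp2 : IsPGroup q S₂ := hRp2.to_le inf_le_left
  set N := normalizer ((zpowers b : Subgroup G) : Set G) with hN
  have hEN : E ≤ N := h.le_normalizer_zpowers hbE
  set X := cp p N ⊓ normalizer (D : Set G) with hX
  have hS₁X : S₁ ≤ X := le_inf (h.le_cp hbE hb1 (inf_le_right.trans (centralizer_singleton_le b)) (hnd hSp1) hES₁)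
    (inf_le_left.trans inf_le_right)
  have hS₂X : S₂ ≤ X := le_inf (h.le_cp hbE hb1 (inf_le_right.trans (centralizer_singleton_le b)) (hnd hSp2) hES₂)
    (inf_le_left.trans inf_le_right)
  have hEX : E ≤ normalizer (X : Set G) := H1.Coprime2.le_normalizer_inf (hEN.trans (le_normalizer_cp p N))
    (H1.Coprime2.le_normalizer_normalizer hED)
  have hXp : ¬ p ∣ Nat.card X := fun hd => not_dvd_cp p N (hd.trans (Subgroup.card_dvd_of_le inf_le_left))
  have hcop : (Nat.card E).Coprime (Nat.card X) := by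
    obtain ⟨m, hm⟩ := IsPGroup.iff_card.1 h.pg
    rw [hm]
    exact Nat.Coprime.pow_left m ((hp.out.coprime_iff_not_dvd).2 hXp)
  have hsol : Group.IsSolvable E := by
    have := h.pg.isNilpotent
    infer_instance
  obtain ⟨T₁, hT₁, hle₁', hAT₁⟩ := H1.Coprime2.exists_invariant_sylow_ge E X hEX hcop (Or.inl hsol) q
    S₁ hS₁X hSp1 hES₁
  obtain ⟨T₂, hT₂, hle₂', hAT₂⟩ := H1.Coprime2.exists_invariant_sylow_ge E X hEX hcop (Or.inl hsol) q
    S₂ hS₂X hSp2 hES₂
  obtain ⟨c, hc, hcT⟩ := H1.Coprime2.conj_invariant_sylow E X hEX hcop (Or.inl hsol) q T₁ T₂ hT₁ hT₂ hAT₁ hAT₂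
  rw [H1.SZ.conj_smul_eq_map] at hcT
  have hcK : c ∈ cp p (centralizer (E : Set G)) :=
    h.le_KK (Y := X ⊓ centralizer (E : Set G)) inf_le_right
      (fun hd => hXp (hd.trans (Subgroup.card_dvd_of_le inf_le_left))) hc
  have hcD : c ∈ normalizer (D : Set G) := hc.1.2
  have hcE : c ∈ normalizer (E : Set G) := (Subgroup.centralizer_le_normalizer _) hc.2
  have hT₂X : T₂ ≤ X := hT₂.1
  have hV : IsPGroup q (D ⊔ T₂ : Subgroup G) :=
    IsPGroup.to_sup_of_normal_left' (hp₁.to_le inf_le_left) hT₂.isPGroup (hT₂X.trans inf_le_right)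
  obtain ⟨Q₃, hQ₃, hVQ₃⟩ := H29.Trans.exists_max (H29.Trans.mem_inv_iff.2
    ⟨hV, H1.Coprime2.le_normalizer_sup hED hAT₂⟩ : D ⊔ T₂ ∈ invSubgroups ⊤ E {q})
  have hcard_le : ∀ A B : Subgroup G, Nat.card (A ⊓ B : Subgroup G) ≤ Nat.card G := fun A B =>
    Subgroup.card_le_card_group _
  -- `Q₂` and `Q₃`
  obtain ⟨k2, hk2, e2⟩ : ∃ k ∈ cp p (centralizer (E : Set G)), Q₃ = cj k Q₂ := by
    have hlt : D < Q₂ ⊓ Q₃ := by
      refine lt_of_le_of_ne (le_inf inf_le_right (le_sup_left.trans hVQ₃)) ?_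
      intro e
      apply hS₂D
      rw [e]
      exact le_inf (inf_le_left.trans inf_le_left) (hle₂'.trans (le_sup_right.trans hVQ₃))
    have hltc : Nat.card D < Nat.card (Q₂ ⊓ Q₃ : Subgroup G) := by
      refine lt_of_le_of_ne (Subgroup.card_le_of_le hlt.le) ?_
      intro e
      exact hlt.ne (Subgroup.eq_of_le_of_card_ge hlt.le e.ge)
    refine ih _ ?_ Q₂ Q₃ rfl h₂ hQ₃
    have := hcard_le Q₂ Q₃
    rw [← hn]; omega
  have hQc : cj c Q₁ ∈ maxInvSubgroups ⊤ E {q} := H29.Trans.max_cj h₁ hcE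
  obtain ⟨k3, hk3, e3⟩ : ∃ k ∈ cp p (centralizer (E : Set G)), Q₃ = cj k (cj c Q₁) := by
    have hcDD : cj c D = D := mem_normalizer_iff_cj.1 hcD
    have hlt : D < cj c Q₁ ⊓ Q₃ := by
      refine lt_of_le_of_ne (le_inf ?_ (le_sup_left.trans hVQ₃)) ?_
      · rw [← hcDD]; exact cj_le_cj.2 inf_le_left
      intro e
      apply hS₁D
      rw [← cj_le_cj (g := c), hcDD, e]
      refine le_inf (cj_le_cj.2 (inf_le_left.trans inf_le_left)) ?_
      refine le_trans ?_ (le_sup_right.trans hVQ₃)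
      rw [← hcT]
      exact cj_le_cj.2 hle₁'
    have hltc : Nat.card D < Nat.card (cj c Q₁ ⊓ Q₃ : Subgroup G) := by
      refine lt_of_le_of_ne (Subgroup.card_le_of_le hlt.le) ?_
      intro e
      exact hlt.ne (Subgroup.eq_of_le_of_card_ge hlt.le e.ge)
    refine ih _ ?_ (cj c Q₁) Q₃ rfl hQc hQ₃
    have := hcard_le (cj c Q₁) Q₃
    rw [← hn]; omega
  refine ⟨k2⁻¹ * (k3 * c), mul_mem (inv_mem hk2) (mul_mem hk3 hcK), ?_⟩
  rw [← cj_cj, ← cj_cj, ← e3, e2, cj_inv_cj]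

theorem piCoreOf_eq (X : Subgroup G) : piCoreOf (primesNotDvd p) X = cp p X := by
  apply piCoreOf_congr
  intro q hq
  constructor
  · rintro ⟨-, h2⟩
    intro e
    exact h2 (by rw [e])
  · intro h2
    refine ⟨hq, fun hd => h2 ?_⟩
    exact (Nat.prime_dvd_prime_iff_eq hq hp.out).1 hd

theorem class_two {S : Type*} [Group S] (h : Group.IsNilpotent S) (h2 : Group.nilpotencyClass S ≤ 2) (a b c : S) :
    ⁅⁅a, b⁆, c⁆ = 1 := by
  have := h
  have h3 := Subgroup.lowerCentralSeries_eq_bot_iff_nilpotencyClass_le.2 h2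
  have h4 : ⁅⁅a, b⁆, c⁆ ∈ (⊤ : Subgroup S).lowerCentralSeries 2 := by
    refine Subgroup.commutator_mem_commutator ?_ (Subgroup.mem_top _)
    exact Subgroup.commutator_mem_commutator (Subgroup.mem_top _) (Subgroup.mem_top _)
  rw [h3] at h4
  exact Subgroup.mem_bot.1 h4

end H31.PTrans
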